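import Cfsg.Agent.H20.Generation
import Cfsg.Agent.H20.Abelian
import Cfsg.Agent.H19.Cores

/-!
An elementary abelian group `A` of order `q²` acting coprimely on `G` (both subgroups of an
ambient group) such that the centraliser in `G` of each nontrivial element of `A` is abelian.
Basic facts.
-/

set_option autoImplicit false
open scoped Pointwise commutatorElement

namespace Cfsg.Agent.H77.CentSq

variable {Γ : Type*} [Group Γ]

/-- The centraliser of `a` in `G`. -/
abbrev cen (G : Subgroup Γ) (a : Γ) : Subgroup Γ := G ⊓ Subgroup.centralizer ({a} : Set Γ)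

theorem mem_cen {G : Subgroup Γ} {a x : Γ} : x ∈ cen G a ↔ x ∈ G ∧ a * x = x * a := by
  rw [Subgroup.mem_inf, Subgroup.mem_centralizer_singleton_iff]
  exact ⟨fun h => ⟨h.1, h.2.symm⟩, fun h => ⟨h.1, h.2.symm⟩⟩

theorem cen_mono {G H : Subgroup Γ} (h : H ≤ G) (a : Γ) : cen H a ≤ cen G a := inf_le_inf_right _ h

/-- The standing hypotheses. -/
structure Hyp (q : ℕ) (A G : Subgroup Γ) : Prop where
  prime : q.Prime
  comm : IsMulCommutative A
  card : Nat.card A = q ^ 2
  notCyclic : ¬ IsCyclic A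
  norm : A ≤ Subgroup.normalizer (G : Set Γ)
  cop : (Nat.card A).Coprime (Nat.card G)
  abelian : ∀ a ∈ A, a ≠ 1 → ∀ x ∈ cen G a, ∀ y ∈ cen G a, x * y = y * x

/-- The hypotheses together with fixed-point-freeness. -/
structure Setting (q : ℕ) (A G : Subgroup Γ) : Prop extends Hyp q A G where
  fixFree : G ⊓ Subgroup.centralizer (A : Set Γ) = ⊥

theorem comm_of_mem {A : Subgroup Γ} (hA : IsMulCommutative A) {a b : Γ} (ha : a ∈ A) (hb : b ∈ A) :
    a * b = b * a := by
  haveI := hA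
  exact congrArg Subtype.val (mul_comm' (⟨a, ha⟩ : A) ⟨b, hb⟩)

theorem le_normalizer_sup' {A X Y : Subgroup Γ} (hX : A ≤ Subgroup.normalizer (X : Set Γ))
    (hY : A ≤ Subgroup.normalizer (Y : Set Γ)) :
    A ≤ Subgroup.normalizer ((X ⊔ Y : Subgroup Γ) : Set Γ) := by
  rw [Subgroup.le_normalizer_iff_commutator_le_left, Subgroup.commutator_comm]
  rw [Subgroup.le_normalizer_iff_commutator_le_left, Subgroup.commutator_comm] at hX hY
  rw [Subgroup.commutator_le]
  intro a ha z hz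
  have key : X ⊔ Y ≤ Subgroup.comap (MulAut.conj a).toMonoidHom (X ⊔ Y) := by
    refine sup_le (fun x hx => ?_) (fun y hy => ?_)
    · have h1 : ⁅a, x⁆ ∈ X := hX (Subgroup.commutator_mem_commutator ha hx)
      have e : (MulAut.conj a).toMonoidHom x = ⁅a, x⁆ * x := by
        simp [MulAut.conj_apply, commutatorElement_def]
      rw [Subgroup.mem_comap, e]
      exact Subgroup.mem_sup_left (mul_mem h1 hx)
    · have h1 : ⁅a, y⁆ ∈ Y := hY (Subgroup.commutator_mem_commutator ha hy)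
      have e : (MulAut.conj a).toMonoidHom y = ⁅a, y⁆ * y := by
        simp [MulAut.conj_apply, commutatorElement_def]
      rw [Subgroup.mem_comap, e]
      exact Subgroup.mem_sup_right (mul_mem h1 hy)
  have h := key hz
  rw [Subgroup.mem_comap] at h
  have e : ⁅a, z⁆ = (MulAut.conj a).toMonoidHom z * z⁻¹ := by
    simp [MulAut.conj_apply, commutatorElement_def]
  rw [e]
  exact mul_mem h (inv_mem hz)

theorem le_normalizer_commutator' {A X Y : Subgroup Γ} (hX : A ≤ Subgroup.normalizer (X : Set Γ))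
    (hY : A ≤ Subgroup.normalizer (Y : Set Γ)) :
    A ≤ Subgroup.normalizer ((⁅X, Y⁆ : Subgroup Γ) : Set Γ) := by
  refine Subgroup.le_normalizer_closure_iff.mpr ?_
  rintro a ha _ ⟨u, hu, v, hv, rfl⟩
  rw [conjugate_commutatorElement]
  exact Subgroup.commutator_mem_commutator (H20.conj_mem_of_le_normalizer hX ha hu)
    (H20.conj_mem_of_le_normalizer hY ha hv)

theorem le_normalizer_normalizer' {A X : Subgroup Γ} (hX : A ≤ Subgroup.normalizer (X : Set Γ)) :
    A ≤ Subgroup.normalizer ((Subgroup.normalizer (X : Set Γ) : Subgroup Γ) : Set Γ) :=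
  hX.trans Subgroup.le_normalizer

/-- The image of a characteristic subgroup of a normalised subgroup is normalised. -/
theorem le_normalizer_map_char {A H : Subgroup Γ} (hA : A ≤ Subgroup.normalizer (H : Set Γ))
    (C : Subgroup H) [C.Characteristic] :
    A ≤ Subgroup.normalizer ((C.map H.subtype : Subgroup Γ) : Set Γ) := by
  rw [Subgroup.le_normalizer_iff]
  rintro a ha _ ⟨c, hc, rfl⟩
  refine ⟨H20.conjAut hA ⟨a, ha⟩ c, ?_, rfl⟩
  have h := Subgroup.characteristic_iff_map_eq.mp (inferInstance : C.Characteristic)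
    (H20.conjAut hA ⟨a, ha⟩)
  exact h.le ⟨c, hc, rfl⟩

namespace Hyp

variable {q : ℕ} {A G : Subgroup Γ} (h : Hyp q A G)
include h

theorem restrict [Finite Γ] {H : Subgroup Γ} (hH : H ≤ G) (hinv : A ≤ Subgroup.normalizer (H : Set Γ)) :
    Hyp q A H where
  prime := h.prime
  comm := h.comm
  card := h.card
  notCyclic := h.notCyclic
  norm := hinv
  cop := H20.coprime_card_mono_right h.cop hH
  abelian a ha ha1 x hx y hy := h.abelian a ha ha1 x (cen_mono hH a hx) y (cen_mono hH a hy)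

theorem le_normalizer_centralizer_singleton {a : Γ} (ha : a ∈ A) :
    A ≤ Subgroup.normalizer ((Subgroup.centralizer ({a} : Set Γ) : Subgroup Γ) : Set Γ) := by
  intro b hb
  refine Subgroup.le_normalizer ?_
  rw [Subgroup.mem_centralizer_singleton_iff]
  exact comm_of_mem h.comm hb ha

/-- Centralisers of elements of `A` are invariant. -/
theorem le_normalizer_cen {a : Γ} (ha : a ∈ A) {H : Subgroup Γ}
    (hH : A ≤ Subgroup.normalizer (H : Set Γ)) :
    A ≤ Subgroup.normalizer ((cen H a : Subgroup Γ) : Set Γ) :=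
  H20.le_normalizer_inf hH (h.le_normalizer_centralizer_singleton ha)

/-- Two independent elements of `A` generate it. -/
theorem le_of_two_mem {a b : Γ} (ha : a ∈ A) (hb : b ∈ A) (hb1 : b ≠ 1)
    (hab : a ∉ Subgroup.zpowers b) [Finite Γ] {T : Subgroup Γ} (haT : a ∈ T) (hbT : b ∈ T) : A ≤ T := by
  set T' := A ⊓ T
  have hd : Nat.card T' ∣ q ^ 2 := h.card ▸ Subgroup.card_dvd_of_le inf_le_left
  obtain ⟨k, hk, hkc⟩ := (Nat.dvd_prime_pow h.prime).mp hd
  have hbord : orderOf b ∣ q ^ 2 := h.card ▸ Subgroup.orderOf_dvd_natCard A hb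
  have hblt : Nat.card (Subgroup.zpowers b) < Nat.card T' := by
    have hle : Subgroup.zpowers b ≤ T' := Subgroup.zpowers_le.mpr ⟨hb, hbT⟩
    refine lt_of_le_of_ne (Nat.le_of_dvd Nat.card_pos (Subgroup.card_dvd_of_le hle)) fun e => hab ?_
    rw [Subgroup.eq_of_le_of_card_ge hle e.ge]
    exact ⟨ha, haT⟩
  have hb2 : q ≤ Nat.card (Subgroup.zpowers b) := by
    rw [Nat.card_zpowers]
    obtain ⟨i, hi, hic⟩ := (Nat.dvd_prime_pow h.prime).mp hbord
    rw [hic]
    refine Nat.le_self_pow ?_ q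
    rintro rfl
    exact hb1 (orderOf_eq_one_iff.mp (by simpa using hic))
  have hk2 : k = 2 := by
    interval_cases k
    · rw [hkc, pow_zero] at hblt
      have := h.prime.one_lt
      omega
    · rw [hkc, pow_one] at hblt
      omega
    · rfl
  have : T' = A := Subgroup.eq_of_le_of_card_ge inf_le_left (by rw [hkc, hk2, h.card])
  exact this ▸ inf_le_right

/-- Generation by centralisers. -/
theorem le_of_cen_le [Finite Γ] {K : Subgroup Γ} (hK : K ≤ G) (hinv : A ≤ Subgroup.normalizer (K : Set Γ))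
    {T : Subgroup Γ} (hT : ∀ a ∈ A, a ≠ 1 → cen K a ≤ T) : K ≤ T := by
  haveI := h.comm
  exact H20.le_of_centralizers_le h.notCyclic hinv (H20.coprime_card_mono_right h.cop hK) hT

/-- Fixed points of an element of `A` pass to cosets. -/
theorem exists_fixed_coset [Finite Γ] {a : Γ} (ha : a ∈ A) {N : Subgroup Γ} (hN : N ≤ G)
    (hNa : A ≤ Subgroup.normalizer (N : Set Γ)) {k : Γ} (hk : k ∈ G)
    (hfix : k⁻¹ * (a * k * a⁻¹) ∈ N) : ∃ c ∈ cen G a, k⁻¹ * c ∈ N := by
  have hle : Subgroup.zpowers a ≤ A := Subgroup.zpowers_le.mpr ha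
  have hstab : ∀ b ∈ Subgroup.zpowers a, k⁻¹ * (b * k * b⁻¹) ∈ N := by
    intro b hb
    rw [Subgroup.zpowers_eq_closure] at hb
    induction hb using Subgroup.closure_induction with
    | mem x hx => rw [Set.mem_singleton_iff.mp hx]; exact hfix
    | one => simp
    | mul x y hx hy ihx ihy =>
      have hxA : x ∈ A := hle (by rwa [Subgroup.zpowers_eq_closure])
      have : k⁻¹ * (x * y * k * (x * y)⁻¹) =
          (k⁻¹ * (x * k * x⁻¹)) * (x * (k⁻¹ * (y * k * y⁻¹)) * x⁻¹) := by group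
      rw [this]
      exact mul_mem ihx (H20.conj_mem_of_le_normalizer hNa hxA ihy)
    | inv x hx ihx =>
      have hxA : x ∈ A := hle (by rwa [Subgroup.zpowers_eq_closure])
      have : k⁻¹ * (x⁻¹ * k * x⁻¹⁻¹) = x⁻¹ * (k⁻¹ * (x * k * x⁻¹))⁻¹ * x⁻¹⁻¹ := by group
      rw [this]
      exact H20.conj_mem_of_le_normalizer hNa (inv_mem hxA) (inv_mem ihx)
  obtain ⟨c, hc, hkc⟩ := H20.exists_fixed_mem_coset (A := Subgroup.zpowers a) (K := G) (N := N)
    (H20.coprime_card_mono_left h.cop hle) (Or.inl (H20.isSolvable_of_isMulCommutative _)) hN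
    (hle.trans hNa) hk hstab
  exact ⟨c, mem_cen.mpr ⟨hc.1, Subgroup.mem_centralizer_iff.mp hc.2 a (Subgroup.mem_zpowers a)⟩, hkc⟩

/-- A product decomposition of a fixed element can be chosen fixed. -/
theorem exists_fixed_factors [Finite Γ] {a : Γ} (ha : a ∈ A) {W T : Subgroup Γ} (hW : W ≤ G) (hT : T ≤ G)
    (hWa : A ≤ Subgroup.normalizer (W : Set Γ)) (hTa : A ≤ Subgroup.normalizer (T : Set Γ))
    {w t : Γ} (hw : w ∈ W) (ht : t ∈ T) (hwt : w * t ∈ cen G a) :
    ∃ c ∈ cen W a, ∃ d ∈ cen T a, w * t = c * d := by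
  obtain ⟨hwtG, hwta⟩ := mem_cen.mp hwt
  have e : w⁻¹ * (a * w * a⁻¹) = t * (a * t * a⁻¹)⁻¹ := by
    have h1 : a * (w * t) * a⁻¹ = w * t := by rw [hwta, mul_inv_cancel_right]
    calc w⁻¹ * (a * w * a⁻¹) = w⁻¹ * (a * (w * t) * a⁻¹) * (a * t * a⁻¹)⁻¹ := by group
      _ = t * (a * t * a⁻¹)⁻¹ := by rw [h1]; group
  have hD : w⁻¹ * (a * w * a⁻¹) ∈ W ⊓ T := by
    refine Subgroup.mem_inf.mpr ⟨mul_mem (inv_mem hw) (H20.conj_mem_of_le_normalizer hWa ha hw), ?_⟩
    rw [e]
    exact mul_mem ht (inv_mem (H20.conj_mem_of_le_normalizer hTa ha ht))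
  obtain ⟨c, hc, hwc⟩ := h.exists_fixed_coset ha (inf_le_left.trans hW : W ⊓ T ≤ G)
    (H20.le_normalizer_inf hWa hTa) (hW hw) hD
  have hcW : c ∈ W := by simpa using mul_mem hw hwc.1
  refine ⟨c, mem_cen.mpr ⟨hcW, (mem_cen.mp hc).2⟩, c⁻¹ * (w * t), ?_, by group⟩
  refine mem_cen.mpr ⟨?_, ?_⟩
  · have : c⁻¹ * (w * t) = (w⁻¹ * c)⁻¹ * t := by group
    rw [this]
    exact mul_mem (inv_mem hwc.2) ht
  · exact (mem_cen.mp (mul_mem (inv_mem hc) (mem_cen.mpr ⟨hwtG, hwta⟩) : c⁻¹ * (w * t) ∈ cen G a)).2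

end Hyp

namespace Setting

variable {q : ℕ} {A G : Subgroup Γ} (h : Setting q A G)
include h

theorem restrict [Finite Γ] {H : Subgroup Γ} (hH : H ≤ G) (hinv : A ≤ Subgroup.normalizer (H : Set Γ)) :
    Setting q A H where
  toHyp := h.toHyp.restrict hH hinv
  fixFree := le_bot_iff.mp (le_of_le_of_eq (inf_le_inf_right _ hH) h.fixFree)

/-- Centralisers of independent elements of `A` meet trivially. -/
theorem eq_one_of_two [Finite Γ] {a b : Γ} (ha : a ∈ A) (hb : b ∈ A) (hb1 : b ≠ 1)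
    (hab : a ∉ Subgroup.zpowers b) {x : Γ} (hxa : x ∈ cen G a) (hxb : x ∈ cen G b) : x = 1 := by
  have hA : A ≤ Subgroup.centralizer ({x} : Set Γ) := by
    refine h.toHyp.le_of_two_mem ha hb hb1 hab ?_ ?_
    · rw [Subgroup.mem_centralizer_singleton_iff]; exact (mem_cen.mp hxa).2
    · rw [Subgroup.mem_centralizer_singleton_iff]; exact (mem_cen.mp hxb).2
  have : x ∈ G ⊓ Subgroup.centralizer (A : Set Γ) :=
    ⟨(mem_cen.mp hxa).1, Subgroup.mem_centralizer_iff.mpr fun y hy =>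
      Subgroup.mem_centralizer_singleton_iff.mp (hA hy)⟩
  rwa [h.fixFree, Subgroup.mem_bot] at this

/-- There is a unique maximal invariant `p`-subgroup. -/
theorem le_of_isPGroup [Finite Γ] {p : ℕ} [Fact p.Prime] {P U : Subgroup Γ} (hP : P ≤ G)
    (hPA : A ≤ Subgroup.normalizer (P : Set Γ)) (hPc : Nat.card P = p ^ (Nat.card G).factorization p)
    (hU : U ≤ G) (hUA : A ≤ Subgroup.normalizer (U : Set Γ)) (hUp : IsPGroup p U) : U ≤ P := by
  haveI := h.comm
  have hs : Group.IsSolvable A ∨ Group.IsSolvable G := Or.inl (H20.isSolvable_of_isMulCommutative A)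
  obtain ⟨S, hUS, hSA⟩ := H20.exists_invariant_sylow_ge h.norm h.cop hs p hU hUp hUA
  obtain ⟨c, hc, e⟩ := H20.invariant_sylow_subgroup_conj h.norm h.cop hs
    (Subgroup.map_subtype_le _) hP (H20.card_map_sylow S) hPc hSA hPA
  rw [h.fixFree, Subgroup.mem_bot] at hc
  subst hc
  rw [map_one, one_smul] at e
  exact e ▸ hUS

end Setting

end Cfsg.Agent.H77.CentSq
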