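import Cfsg.Agent.H77.CentralizerSquare.Minimal
import Cfsg.Agent.H22.Frobenius
import Cfsg.Agent.H23.Thompson

/-!
In a minimal counterexample the normaliser of every invariant subgroup between `Z(P)` and `P`
centralises `Z(P)`.
-/

set_option autoImplicit false
open scoped Pointwise commutatorElement

namespace Cfsg.Agent.H77.CentSq

universe u

variable {Γ : Type u} [Group Γ]

/-- The centre of a subgroup, in the ambient group. -/
abbrev zc (P : Subgroup Γ) : Subgroup Γ := P ⊓ Subgroup.centralizer (P : Set Γ)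

theorem zc_comm {P : Subgroup Γ} : ∀ x ∈ zc P, ∀ y ∈ zc P, x * y = y * x :=
  fun _ hx y hy => (Subgroup.mem_centralizer_iff.mp hx.2 y hy.1).symm

theorem commutator_eq_bot_of_normal_coprime {X Y : Subgroup Γ} (hXY : X ≤ Subgroup.normalizer (Y : Set Γ))
    (hYX : Y ≤ Subgroup.normalizer (X : Set Γ)) (hc : (Nat.card X).Coprime (Nat.card Y)) : ⁅X, Y⁆ = ⊥ := by
  rw [eq_bot_iff, ← Subgroup.inf_eq_bot_of_coprime hc]
  refine le_inf (H20.commutator_le_of_le_normalizer hYX) ?_
  rw [Subgroup.commutator_comm]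
  exact H20.commutator_le_of_le_normalizer hXY

/-- The standing data for the prime `p`. -/
structure Local (q : ℕ) (A G : Subgroup Γ) (p : ℕ) (P : Subgroup Γ) : Prop extends Min q A G where
  le : P ≤ G
  inv : A ≤ Subgroup.normalizer (P : Set Γ)
  card_eq : Nat.card P = p ^ (Nat.card G).factorization p
  ne_bot : P ≠ ⊥

namespace Local

variable {q p : ℕ} {A G P : Subgroup Γ} (h : Local q A G p P)
include h

theorem isPGroup : IsPGroup p P := IsPGroup.of_card h.card_eq

theorem zc_ne_bot [Finite Γ] [Fact p.Prime] : zc P ≠ ⊥ := H23.inf_centralizer_ne_bot h.isPGroup h.ne_bot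

theorem zc_le : zc P ≤ G := inf_le_left.trans h.le

theorem zc_inv : A ≤ Subgroup.normalizer ((zc P : Subgroup Γ) : Set Γ) :=
  H20.le_normalizer_inf h.inv (H20.le_normalizer_centralizer h.inv)

theorem coprime_of_coprime {W : Subgroup Γ} (hW : (Nat.card W).Coprime p) :
    (Nat.card P).Coprime (Nat.card W) := by
  rw [h.card_eq]
  exact (hW.pow_right _).symm

theorem isSolvable_normalizer [Finite Γ] [Fact p.Prime] {Q : Subgroup Γ} (hQ : Q ≤ P)
    (hQA : A ≤ Subgroup.normalizer (Q : Set Γ)) (hne : Q ≠ ⊥) :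
    Group.IsSolvable (G ⊓ Subgroup.normalizer (Q : Set Γ) : Subgroup Γ) :=
  h.sub _ inf_le_left (h.normalizer_ne (hQ.trans h.le) hQA hne
    (H20.isSolvable_of_isPGroup (h.isPGroup.to_le hQ)))
    (H20.le_normalizer_inf h.norm (le_normalizer_normalizer' hQA))

/-- Solvable invariant subgroups factor. -/
theorem exists_local_core [Finite Γ] [Fact p.Prime] {H : Subgroup Γ} (hH : H ≤ G)
    (hHA : A ≤ Subgroup.normalizer (H : Set Γ)) (hs : Group.IsSolvable H) :
    ∃ W : Subgroup Γ, W ≤ H ∧ A ≤ Subgroup.normalizer (W : Set Γ) ∧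
      H ≤ Subgroup.normalizer (W : Set Γ) ∧ (Nat.card W).Coprime p ∧
      (∀ x ∈ H, ∃ w ∈ W, ∃ n ∈ H ⊓ Subgroup.normalizer ((P ⊓ H : Subgroup Γ) : Set Γ), x = w * n) ∧
      ⁅H, H⁆ ≤ W ⊔ (P ⊓ H) :=
  (h.toSetting.restrict hH hHA).exists_core hs inf_le_right
    (h.toSetting.card_inf_sylow h.le h.inv h.card_eq hH hHA)

/-- The derived subgroup of `N(P)` centralises the centre of `P`. -/
theorem commutator_normalizer_le [Finite Γ] [Fact p.Prime] :
    ⁅G ⊓ Subgroup.normalizer (P : Set Γ), G ⊓ Subgroup.normalizer (P : Set Γ)⁆ ≤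
      Subgroup.centralizer ((zc P : Subgroup Γ) : Set Γ) := by
  set N := G ⊓ Subgroup.normalizer (P : Set Γ)
  have hPN : P ⊓ N = P := inf_eq_left.mpr (le_inf h.le Subgroup.le_normalizer)
  obtain ⟨W, hWN, -, hNW, hWp, -, hcomm⟩ := h.exists_local_core inf_le_left
    (H20.le_normalizer_inf h.norm (le_normalizer_normalizer' h.inv))
    (h.isSolvable_normalizer le_rfl h.inv h.ne_bot)
  rw [hPN] at hcomm
  refine hcomm.trans (sup_le ?_ ?_)
  · refine (H20.le_centralizer_of_commutator_eq_bot (commutator_eq_bot_of_normal_coprime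
      ((le_inf h.le Subgroup.le_normalizer : P ≤ N).trans hNW) (hWN.trans inf_le_right)
      (h.coprime_of_coprime hWp))).trans (Subgroup.centralizer_le inf_le_left)
  · exact fun x hx => Subgroup.mem_centralizer_iff.mpr fun z hz =>
      (Subgroup.mem_centralizer_iff.mp hz.2 x hx).symm

/-- In `N(P)`, every fixed-point subgroup centralises the centre of `P`. -/
theorem cen_normalizer_le [Finite Γ] [Fact p.Prime] {j : Γ} (hj : j ∈ A) (hj1 : j ≠ 1) :
    cen (G ⊓ Subgroup.normalizer (P : Set Γ)) j ≤ Subgroup.centralizer ((zc P : Subgroup Γ) : Set Γ) := by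
  set N := G ⊓ Subgroup.normalizer (P : Set Γ) with hN
  set Z := zc P with hZ
  have hNG : N ≤ G := inf_le_left
  have hNA : A ≤ Subgroup.normalizer (N : Set Γ) :=
    H20.le_normalizer_inf h.norm (le_normalizer_normalizer' h.inv)
  have hNZ : N ≤ Subgroup.normalizer (Z : Set Γ) :=
    H20.le_normalizer_inf inf_le_right (H20.le_normalizer_centralizer inf_le_right)
  obtain ⟨K, hKX, hKA, hKc, hXK⟩ := h.toSetting.exists_pPrimePart h.le h.inv h.card_eq
    (inf_le_left.trans hNG : cen N j ≤ G) (h.le_normalizer_cen hj hNA)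
    (fun x hx y hy => h.abelian j hj hj1 x (cen_mono hNG j hx) y (cen_mono hNG j hy))
  have hKN : K ≤ N := hKX.trans inf_le_left
  suffices hK : K ≤ Subgroup.centralizer (Z : Set Γ) from
    hXK.trans (sup_le (fun x hx => Subgroup.mem_centralizer_iff.mpr fun z hz =>
      (Subgroup.mem_centralizer_iff.mp hz.2 x hx).symm) hK)
  refine H20.le_centralizer_of_commutator_eq_bot ?_
  by_contra hne
  set V := ⁅Z, K⁆ with hV
  have hZc : IsMulCommutative Z :=
    IsMulCommutative.of_comm fun x y => Subtype.ext (zc_comm (x : Γ) x.2 (y : Γ) y.2)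
  have hKZ : K ≤ Subgroup.normalizer (Z : Set Γ) := hKN.trans hNZ
  have hVZ : V ≤ Z := H20.commutator_le_of_le_normalizer hKZ
  have hVG : V ≤ G := hVZ.trans h.zc_le
  have hVA : A ≤ Subgroup.normalizer (V : Set Γ) := le_normalizer_commutator' h.zc_inv hKA
  have hVP : V ≤ P := hVZ.trans inf_le_left
  have hcopKZ : (Nat.card K).Coprime (Nat.card Z) := H20.coprime_card_mono_right hKc inf_le_left
  have hKV : K ≤ Subgroup.normalizer (V : Set Γ) := Subgroup.normalizer_commutator_ge_right Z K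
  have hNV : N ≤ Subgroup.normalizer (V : Set Γ) := by
    refine Subgroup.le_normalizer_closure_iff.mpr ?_
    rintro n hn _ ⟨z, hz, k, hk, rfl⟩
    rw [conjugate_commutatorElement]
    have hz' : n * z * n⁻¹ ∈ Z := H20.conj_mem_of_le_normalizer hNZ hn hz
    set z' := n * z * n⁻¹
    have hc := h.commutator_normalizer_le (Subgroup.commutator_mem_commutator hn (hKN hk))
    have hzk : ⁅z', k⁆ ∈ Z := hVZ (Subgroup.commutator_mem_commutator hz' hk)
    have e : n * k * n⁻¹ = ⁅n, k⁆ * k := by simp [commutatorElement_def]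
    rw [e]
    set c := ⁅n, k⁆
    have e2 : ⁅z', c * k⁆ = ⁅z', c⁆ * (c * ⁅z', k⁆ * c⁻¹) := by
      simp only [commutatorElement_def]; group
    rw [e2, commutatorElement_eq_one_iff_mul_comm.mpr (Subgroup.mem_centralizer_iff.mp hc z' hz'),
      one_mul, ← (Subgroup.mem_centralizer_iff.mp hc _ hzk), mul_inv_cancel_right]
    exact Subgroup.commutator_mem_commutator hz' hk
  have hfix : ∀ y ∈ V, y ∈ Subgroup.centralizer (K : Set Γ) → y = 1 := fun y hy hyK => by
    have h1 : y ∈ (Z ⊓ Subgroup.centralizer (K : Set Γ)) ⊓ ⁅Z, K⁆ := ⟨⟨hVZ hy, hyK⟩, hy⟩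
    rwa [H20.centralizer_inf_commutator_eq_bot hKZ hcopKZ, Subgroup.mem_bot] at h1
  have hVj : cen V j = ⊥ := by
    rw [eq_bot_iff]
    intro y hy
    exact Subgroup.mem_bot.mpr (hfix y hy.1 (Subgroup.mem_centralizer_iff.mpr fun k hk =>
      h.abelian j hj hj1 k (cen_mono hNG j (hKX hk)) y (cen_mono hVG j hy)))
  have hVY : V ≤ ⁅V, K⁆ := (H20.commutator_commutator_eq hKZ hcopKZ
    (Or.inr (H20.isSolvable_of_isMulCommutative Z))).ge
  have hVV : ⁅V, V⁆ = ⊥ := Subgroup.commutator_eq_bot_iff_le_centralizer.mpr fun x hx =>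
    Subgroup.mem_centralizer_iff.mpr fun y hy => zc_comm y (hVZ hy) x (hVZ hx)
  have hKj : K ≤ cen G j := hKX.trans (cen_mono hNG j)
  have hVb : ∀ b ∈ A, b ≠ 1 → b ∉ Subgroup.zpowers j → cen V b ≠ ⊥ := by
    intro b hb hb1 hbj e
    refine hne (le_bot_iff.mp ?_)
    refine h.toSetting.le_of_fixed_commutators hj hj1 hb hb1 hbj hKj hKA hVG hVA hKV
      (H20.coprime_card_mono_right hcopKZ hVZ) hVY bot_le ?_ ?_ hVV.le ?_
    · exact le_top.trans (Subgroup.normalizer_eq_top ⊥).ge
    · exact le_top.trans (Subgroup.normalizer_eq_top ⊥).ge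
    · intro y hy l _
      rw [e, Subgroup.mem_bot] at hy
      rw [hy, commutatorElement_one_left]
      exact one_mem _
  -- `N(V)` contains `C(b)` for `b ∉ ⟨j⟩`
  set M := G ⊓ Subgroup.normalizer (V : Set Γ) with hM
  have hMne : M ≠ G := h.normalizer_ne hVG hVA hne (H20.isSolvable_of_isPGroup (h.isPGroup.to_le hVP))
  have hcenM : ∀ b ∈ A, b ≠ 1 → b ∉ Subgroup.zpowers j → cen G b ≤ M := by
    intro b hb hb1 hbj x hx
    set Vb := cen V b with hVbdef
    have hVbA : A ≤ Subgroup.normalizer (Vb : Set Γ) := h.le_normalizer_cen hb hVA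
    set H := G ⊓ Subgroup.centralizer (Vb : Set Γ) with hH
    have hHA : A ≤ Subgroup.normalizer (H : Set Γ) :=
      H20.le_normalizer_inf h.norm (H20.le_normalizer_centralizer hVbA)
    have hHs : Group.IsSolvable H := h.sub H inf_le_left
      (h.centralizer_ne (inf_le_left.trans hVG) hVbA (hVb b hb hb1 hbj)
        (H20.isSolvable_of_isPGroup (h.isPGroup.to_le (inf_le_left.trans hVP)))) hHA
    have hPH : P ≤ H := le_inf h.le fun y hy => Subgroup.mem_centralizer_iff.mpr fun v hv =>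
      (Subgroup.mem_centralizer_iff.mp (hVZ hv.1).2 y hy).symm
    obtain ⟨W, hWH, hWA, hHW, hWp, hfac, -⟩ := h.exists_local_core inf_le_left hHA hHs
    have hxH : x ∈ H := ⟨hx.1, Subgroup.mem_centralizer_iff.mpr fun v hv =>
      h.abelian b hb hb1 v (cen_mono hVG b hv) x hx⟩
    obtain ⟨w, hw, n, hn, rfl⟩ := hfac x hxH
    rw [inf_eq_left.mpr hPH] at hn
    refine ⟨hx.1, mul_mem ?_ (hNV ⟨hn.1.1, hn.2⟩)⟩
    have hWG : W ≤ G := hWH.trans inf_le_left
    have hVW : V ≤ Subgroup.normalizer (W : Set Γ) := (hVP.trans hPH).trans hHW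
    have hcopVW : (Nat.card V).Coprime (Nat.card W) :=
      H20.coprime_card_mono_left (h.coprime_of_coprime hWp) hVP
    have hWjA : A ≤ Subgroup.normalizer ((cen W j : Subgroup Γ) : Set Γ) := h.le_normalizer_cen hj hWA
    set D := V ⊓ Subgroup.centralizer ((cen W j : Subgroup Γ) : Set Γ) with hD
    have hKWj : K ≤ Subgroup.normalizer ((cen W j : Subgroup Γ) : Set Γ) := by
      rw [Subgroup.le_normalizer_iff]
      intro k hk w hw
      rw [h.abelian j hj hj1 k (hKj hk) w (cen_mono hWG j hw), mul_inv_cancel_right]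
      exact hw
    have hDK : K ≤ Subgroup.normalizer (D : Set Γ) :=
      H20.le_normalizer_inf hKV (H20.le_normalizer_centralizer hKWj)
    have hVD : V ≤ D := by
      refine h.toSetting.le_of_fixed_commutators hj hj1 hb hb1 hbj hKj hKA hVG hVA hKV
        (H20.coprime_card_mono_right hcopKZ hVZ) hVY inf_le_left
        (H20.le_normalizer_inf hVA (H20.le_normalizer_centralizer hWjA)) hDK
        (hVV.le.trans bot_le) ?_
      intro y hy k hk
      have hyD : y ∈ D := ⟨hy.1, Subgroup.mem_centralizer_iff.mpr fun w hw =>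
        (Subgroup.mem_centralizer_iff.mp (hWH hw.1).2 y hy).symm⟩
      have e : ⁅y, k⁆ = y * (k * y⁻¹ * k⁻¹) := by simp only [commutatorElement_def]; group
      rw [e]
      exact mul_mem hyD (H20.conj_mem_of_le_normalizer hDK hk (inv_mem hyD))
    have hVcW : V ≤ Subgroup.centralizer (W : Set Γ) := by
      refine h.toHyp.le_of_cen_le hVG hVA fun c hc hc1 => ?_
      by_cases hcj : c ∈ Subgroup.zpowers j
      · rw [h.toHyp.cen_eq_of_mem_zpowers hc hc1 hj hj1 hcj, hVj]
        exact bot_le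
      · refine h.toSetting.le_centralizer_of_cen hc hc1 hj hj1 (h.toHyp.notMem_zpowers_symm hc hc1 hj hj1 hcj)
          (cen_mono hVG c) (h.le_normalizer_cen hc hVA) hWG hWA (inf_le_left.trans hVW)
          (H20.isSolvable_of_le hWH hHs) (H20.coprime_card_mono_left hcopVW inf_le_left) ?_
        intro w hw
        exact Subgroup.mem_centralizer_iff.mpr fun v hv =>
          (Subgroup.mem_centralizer_iff.mp (hVD hv.1).2 w hw).symm
    refine Subgroup.centralizer_le_normalizer (V : Set Γ) ?_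
    exact Subgroup.mem_centralizer_iff.mpr fun v hv =>
      (Subgroup.mem_centralizer_iff.mp (hVcW hv) w hw).symm
  have hbot := h.toMin.cen_eq_bot_of_factor inf_le_left
    (H20.le_normalizer_inf h.norm (le_normalizer_normalizer' hVA)) hMne hj hj1 hcenM
  apply hne
  have hK1 : K = ⊥ := le_bot_iff.mp (hbot ▸ fun k hk => ⟨⟨(hKj hk).1, hKV hk⟩, (hKj hk).2⟩)
  rw [hV, hK1, Subgroup.commutator_bot_right]

/-- **Centre lemma.** -/
theorem normalizer_le [Finite Γ] [Fact p.Prime] : ∀ Q : Subgroup Γ, zc P ≤ Q → Q ≤ P →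
    A ≤ Subgroup.normalizer (Q : Set Γ) →
    G ⊓ Subgroup.normalizer (Q : Set Γ) ≤ Subgroup.centralizer ((zc P : Subgroup Γ) : Set Γ) := by
  intro Q
  induction hn : Nat.card P - Nat.card Q using Nat.strong_induction_on generalizing Q with
  | _ n ih =>
  intro hZQ hQP hQA
  set H := G ⊓ Subgroup.normalizer (Q : Set Γ) with hH
  have hHA : A ≤ Subgroup.normalizer (H : Set Γ) :=
    H20.le_normalizer_inf h.norm (le_normalizer_normalizer' hQA)
  rcases eq_or_lt_of_le hQP with rfl | hlt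
  · exact h.toHyp.le_of_cen_le inf_le_left hHA fun b hb hb1 => h.cen_normalizer_le hb hb1
  have hQne : Q ≠ ⊥ := fun e => h.zc_ne_bot (le_bot_iff.mp (e ▸ hZQ))
  obtain ⟨W, hWH, -, hHW, hWp, hfac, -⟩ :=
    h.exists_local_core inf_le_left hHA (h.isSolvable_normalizer hQP hQA hQne)
  have hP1 : P ⊓ H = P ⊓ Subgroup.normalizer (Q : Set Γ) := by
    rw [hH, ← inf_assoc, inf_eq_left.mpr h.le]
  set P1 := P ⊓ H with hP1def
  have hQP1 : Q < P1 := by
    rw [hP1]; exact H22.lt_inf_normalizer_of_lt h.isPGroup hlt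
  have hcard : Nat.card Q < Nat.card P1 := by
    by_contra hc
    exact hQP1.ne (Subgroup.eq_of_le_of_card_ge hQP1.le (by omega))
  have hP1P : Nat.card P1 ≤ Nat.card P := Subgroup.card_le_of_le inf_le_left
  have hP1Z := ih (Nat.card P - Nat.card P1) (by omega) P1 rfl (hZQ.trans hQP1.le) inf_le_left
    (H20.le_normalizer_inf h.inv hHA)
  intro x hx
  obtain ⟨w, hw, n, hn', rfl⟩ := hfac x hx
  refine mul_mem ?_ (hP1Z ⟨hn'.1.1, hn'.2⟩)
  refine Subgroup.centralizer_le hZQ ((H20.le_centralizer_of_commutator_eq_bot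
    (commutator_eq_bot_of_normal_coprime ((le_inf (hQP.trans h.le) Subgroup.le_normalizer : Q ≤ H).trans hHW)
      (hWH.trans inf_le_right) (H20.coprime_card_mono_left (h.coprime_of_coprime hWp) hQP))) hw)

end Local

end Cfsg.Agent.H77.CentSq
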