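import Cfsg.Agent.H77.CentralizerSquare.Centre
import Cfsg.Agent.H35.GlaubermanNPC
import Cfsg.Agent.H33.ItoNormal

/-!
There is no minimal counterexample.
-/

set_option autoImplicit false
open scoped Pointwise commutatorElement

namespace Cfsg.Agent.H77.CentSq

universe u

variable {Γ : Type u} [Group Γ]

namespace Local

variable {q p : ℕ} {A G P : Subgroup Γ} (h : Local q A G p P)
include h

/-- Some fixed-point subgroup of `N(P)` acts nontrivially on `P`, by the Glauberman–Thompson theorem. -/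
theorem exists_moving [Finite Γ] [Fact p.Prime] (hp2 : p ≠ 2) :
    ∃ j ∈ A, j ≠ 1 ∧ ∃ K : Subgroup Γ, K ≤ cen G j ∧ K ≤ Subgroup.normalizer (P : Set Γ) ∧
      A ≤ Subgroup.normalizer (K : Set Γ) ∧ (Nat.card K).Coprime (Nat.card P) ∧
      ¬ K ≤ Subgroup.centralizer (P : Set Γ) := by
  by_contra hno
  push Not at hno
  set N := G ⊓ Subgroup.normalizer (P : Set Γ) with hN
  have hNA : A ≤ Subgroup.normalizer (N : Set Γ) :=
    H20.le_normalizer_inf h.norm (le_normalizer_normalizer' h.inv)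
  set C0 := G ⊓ Subgroup.centralizer (P : Set Γ) with hC0
  have hNle : N ≤ P ⊔ C0 := h.toHyp.le_of_cen_le inf_le_left hNA fun j hj hj1 => by
    obtain ⟨K, hKX, hKA, hKc, hXK⟩ := h.toSetting.exists_pPrimePart h.le h.inv h.card_eq
      (inf_le_left.trans inf_le_left : cen N j ≤ G) (h.le_normalizer_cen hj hNA)
      (fun x hx y hy => h.abelian j hj hj1 x (cen_mono inf_le_left j hx) y (cen_mono inf_le_left j hy))
    have hKP := hno j hj hj1 K (hKX.trans (cen_mono inf_le_left j))
      (hKX.trans (inf_le_left.trans inf_le_right)) hKA hKc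
    exact hXK.trans (sup_le le_sup_left
      (le_sup_of_le_right (le_inf (hKX.trans (inf_le_left.trans inf_le_left)) hKP)))
  have hPC0 : P ≤ Subgroup.normalizer (C0 : Set Γ) :=
    H20.le_normalizer_inf (h.le.trans Subgroup.le_normalizer)
      (H20.le_normalizer_centralizer Subgroup.le_normalizer)
  set Q := Cfsg.centerThompsonAOf P with hQ
  have hQne : Q ≠ ⊥ := H35.centerThompsonAOf_ne_bot h.isPGroup h.ne_bot
  have hQP : Q ≤ P := H35.centerThompsonAOf_le P
  have hQA : A ≤ Subgroup.normalizer (Q : Set Γ) :=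
    h.inv.trans (H35.normalizer_le_normalizer_centerThompsonAOf P)
  set H := G ⊓ Subgroup.normalizer (Q : Set Γ) with hH
  have hPH : P ≤ H :=
    le_inf h.le (Subgroup.le_normalizer.trans (H35.normalizer_le_normalizer_centerThompsonAOf P))
  obtain ⟨W, hWH, -, hHW, hWp, hfac, -⟩ := h.exists_local_core inf_le_left
    (H20.le_normalizer_inf h.norm (le_normalizer_normalizer' hQA)) (h.isSolvable_normalizer hQP hQA hQne)
  rw [inf_eq_left.mpr hPH] at hfac
  obtain ⟨P0, hP0⟩ := H20.exists_sylow_map_eq h.le h.card_eq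
  have hmem : ∀ x : G, x ∈ (P0 : Subgroup G) ↔ (x : Γ) ∈ P := fun x => by
    rw [← hP0]
    exact ⟨fun hx => ⟨x, hx, rfl⟩, fun ⟨y, hy, e⟩ => Subtype.ext (e : (y : Γ) = x) ▸ hy⟩
  set Q0 := Cfsg.centerThompsonAOf (P0 : Subgroup G) with hQ0
  have hQ0map : Q0.map G.subtype = Q := by
    rw [hQ0, H35.map_centerThompsonAOf _ _ G.subtype_injective.injOn, hP0]
  set N0 := Subgroup.normalizer (Q0 : Set G) with hN0
  have hN0H : ∀ g : G, g ∈ N0 → (g : Γ) ∈ H := fun g hg => ⟨g.2, by
    rw [← hQ0map]; exact Subgroup.le_normalizer_map G.subtype ⟨g, hg, rfl⟩⟩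
  have hP0N : (P0 : Subgroup G) ≤ N0 :=
    Subgroup.le_normalizer.trans (H35.normalizer_le_normalizer_centerThompsonAOf _)
  have hnpc : Cfsg.HasNormalPComplement p N0 := by
    refine H22.hasNormalPComplement_of_no_fusion (P0.subtype hP0N) ?_
    intro x hx g hgx
    rw [Sylow.coe_subtype, Subgroup.mem_subgroupOf] at hx hgx
    have hxP : ((x : G) : Γ) ∈ P := (hmem _).mp hx
    obtain ⟨w, hw, n, hn, e⟩ := hfac ((g : G) : Γ) (hN0H _ g.2)
    have hn' : n ∈ (P : Set Γ) * (C0 : Set Γ) := by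
      rw [← Subgroup.coe_mul_of_left_le_normalizer_right P C0 hPC0]
      exact hNle ⟨hn.1.1, hn.2⟩
    obtain ⟨z, hz, c, hc, rfl⟩ := hn'
    set y := z * ((x : G) : Γ) * z⁻¹ with hy
    have hyP : y ∈ P := mul_mem (mul_mem hz hxP) (inv_mem hz)
    have hgx' : ((g : G) : Γ) * ((x : G) : Γ) * ((g : G) : Γ)⁻¹ = w * y * w⁻¹ := by
      rw [e, hy]
      have hcx := Subgroup.mem_centralizer_iff.mp hc.2 _ hxP
      calc w * (z * c) * ((x : G) : Γ) * (w * (z * c))⁻¹
          = w * (z * (c * ((x : G) : Γ)) * c⁻¹ * z⁻¹) * w⁻¹ := by group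
        _ = w * (z * (((x : G) : Γ) * c) * c⁻¹ * z⁻¹) * w⁻¹ := by rw [hcx]
        _ = _ := by group
    have hgxP : w * y * w⁻¹ ∈ P := by
      rw [← hgx']
      exact (hmem _).mp hgx
    have hwy : w * y * w⁻¹ = y := by
      refine mul_inv_eq_one.mp (H20.eq_one_of_mem_of_coprime (A := P) (h.coprime_of_coprime hWp)
        (mul_mem hgxP (inv_mem hyP)) ?_)
      have e2 : w * y * w⁻¹ * y⁻¹ = w * (y * w⁻¹ * y⁻¹) := by group
      rw [e2]
      exact mul_mem hw (H20.conj_mem_of_le_normalizer hHW (hPH hyP) (inv_mem hw))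
    refine ⟨⟨⟨z, h.le hz⟩, hP0N ((hmem _).mpr hz)⟩, ?_, ?_⟩
    · rw [Sylow.coe_subtype, Subgroup.mem_subgroupOf]; exact (hmem _).mpr hz
    · apply Subtype.ext
      apply Subtype.ext
      show z * ((x : G) : Γ) * z⁻¹ = ((g : G) : Γ) * ((x : G) : Γ) * ((g : G) : Γ)⁻¹
      rw [hgx', hwy]
  have hG := H35.glauberman_npc hp2 _ G rfl P0 hnpc
  obtain ⟨T, hTn, hTc⟩ := (H22.hasNormalPComplement_iff_exists P0).mp hG
  have hTp : (Nat.card T).Coprime p := by
    rw [Nat.coprime_comm, (Fact.out : p.Prime).coprime_iff_not_dvd, ← hTc.index_eq_card]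
    exact P0.not_dvd_index
  haveI := H19.pPrimeCore_normal p G
  haveI := H19.pPrimeCore_characteristic p G
  set O := Cfsg.pPrimeCore p G with hO
  have hOA : A ≤ Subgroup.normalizer ((O.map G.subtype : Subgroup Γ) : Set Γ) :=
    le_normalizer_map_char h.norm O
  have hGO : G ≤ Subgroup.normalizer ((O.map G.subtype : Subgroup Γ) : Set Γ) := by
    rw [Subgroup.le_normalizer_iff]
    rintro g hg _ ⟨o, ho, rfl⟩
    exact ⟨⟨g, hg⟩ * o * ⟨g, hg⟩⁻¹, (inferInstance : O.Normal).conj_mem o ho _, rfl⟩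
  rcases h.simple _ (Subgroup.map_subtype_le O) hOA hGO with e | e
  · rw [Subgroup.map_eq_bot_iff_of_injective _ G.subtype_injective] at e
    have hT : T = ⊥ := le_bot_iff.mp (e ▸ H19.le_pPrimeCore hTn hTp)
    subst hT
    rw [Subgroup.isComplement'_bot_left] at hTc
    refine h.notSolvable ?_
    have hGP : G = P := by
      rw [← hP0, hTc, ← MonoidHom.range_eq_map, Subgroup.range_subtype]
    rw [hGP]
    exact H20.isSolvable_of_isPGroup h.isPGroup
  · refine h.ne_bot (Subgroup.card_eq_one.mp (Nat.eq_one_of_dvd_coprimes ?_ dvd_rfl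
      (Subgroup.card_dvd_of_le h.le)))
    have hc := H19.pPrimeCore_coprime (G := G) p
    rw [← hO, Nat.card_congr (Subgroup.equivMapOfInjective O G.subtype G.subtype_injective).toEquiv, e] at hc
    rw [h.card_eq]
    exact (hc.pow_right _).symm

/-- **No minimal counterexample.** -/
theorem false_of_odd [Finite Γ] [Fact p.Prime] (hp2 : p ≠ 2) : False := by
  obtain ⟨j, hj, hj1, K, hKj, hKP, hKA, hKc, hKne⟩ := h.exists_moving hp2
  set Z := zc P with hZ
  have hKG : K ≤ G := hKj.trans inf_le_left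
  have hKZ : K ≤ Subgroup.centralizer (Z : Set Γ) :=
    (le_inf hKG hKP).trans (h.normalizer_le P inf_le_left le_rfl h.inv)
  set X := ⁅P, K⁆ with hX
  have hXne : X ≠ ⊥ := fun e => hKne (H20.le_centralizer_of_commutator_eq_bot e)
  have hXP : X ≤ P := H20.commutator_le_of_le_normalizer hKP
  have hXG : X ≤ G := hXP.trans h.le
  have hXA : A ≤ Subgroup.normalizer (X : Set Γ) := le_normalizer_commutator' h.inv hKA
  have hPX : P ≤ Subgroup.normalizer (X : Set Γ) := Subgroup.normalizer_commutator_ge_left P K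
  have hKX : K ≤ Subgroup.normalizer (X : Set Γ) := Subgroup.normalizer_commutator_ge_right P K
  have hXp : IsPGroup p X := h.isPGroup.to_le hXP
  have hPs : Group.IsSolvable P := H20.isSolvable_of_isPGroup h.isPGroup
  have hXX : ⁅X, K⁆ = X := H20.commutator_commutator_eq hKP hKc (Or.inr hPs)
  have hPgen : X ⊔ (P ⊓ Subgroup.centralizer (K : Set Γ)) = P :=
    H20.commutator_sup_centralizer hKP hKc (Or.inr hPs)
  have hKXc : (Nat.card K).Coprime (Nat.card X) := H20.coprime_card_mono_right hKc hXP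
  -- the lower central series of `X`
  let D : ℕ → Subgroup Γ := fun i => X.lowerCentralSeries i
  have hD0 : D 0 = X := rfl
  have hDs : ∀ i, D (i + 1) = ⁅D i, X⁆ := fun i => rfl
  have hDnil : ∃ n, D n = ⊥ := (Subgroup.isNilpotent_iff_lowerCentralSeries X).mp hXp.isNilpotent
  have hDX : ∀ i, D i ≤ X := by
    intro i
    induction i with
    | zero => exact le_rfl
    | succ i ih => rw [hDs]; exact (Subgroup.commutator_mono ih le_rfl).trans (Subgroup.commutator_le_self X)
  have hDn : ∀ B : Subgroup Γ, B ≤ Subgroup.normalizer (X : Set Γ) →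
      ∀ i, B ≤ Subgroup.normalizer ((D i : Subgroup Γ) : Set Γ) := by
    intro B hB i
    induction i with
    | zero => exact hB
    | succ i ih => rw [hDs]; exact le_normalizer_commutator' ih hB
  classical
  obtain ⟨m, hm, hUne⟩ : ∃ m, D (m + 2) = ⊥ ∧ D (m + 1) ≠ ⊥ := by
    have h0 : Nat.find hDnil ≠ 0 := fun e => hXne (by
      have := Nat.find_spec hDnil; rwa [e, hD0] at this)
    have h1 : Nat.find hDnil ≠ 1 := fun e => by
      have hab := Nat.find_spec hDnil
      rw [e, hDs, hD0] at hab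
      haveI : IsMulCommutative X := IsMulCommutative.of_comm fun x y => Subtype.ext (by
        have := Subgroup.commutator_mem_commutator x.2 y.2
        rw [hab, Subgroup.mem_bot] at this
        exact commutatorElement_eq_one_iff_mul_comm.mp this)
      obtain ⟨z, hz, hz1⟩ := (Subgroup.bot_or_exists_ne_one _).resolve_left
        (H33.inf_centralizer_ne_bot h.isPGroup hXp hXne hPX)
      have hzk : z ∈ (X ⊓ Subgroup.centralizer (K : Set Γ)) ⊓ ⁅X, K⁆ :=
        ⟨⟨hz.1, Subgroup.mem_centralizer_iff.mpr fun k hk =>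
          (Subgroup.mem_centralizer_iff.mp (hKZ hk) z ⟨hXP hz.1, hz.2⟩).symm⟩, by rw [hXX]; exact hz.1⟩
      rw [H20.centralizer_inf_commutator_eq_bot hKX hKXc, Subgroup.mem_bot] at hzk
      exact hz1 hzk
    refine ⟨Nat.find hDnil - 2, ?_, ?_⟩
    · rw [show Nat.find hDnil - 2 + 2 = Nat.find hDnil by omega]; exact Nat.find_spec hDnil
    · exact Nat.find_min hDnil (by omega)
  set U := D m with hUdef
  set L := D (m + 1) with hLdef
  have hUX : U ≤ X := hDX m
  have hLX : L ≤ X := hDX (m + 1)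
  have hLU : L = ⁅U, X⁆ := hDs m
  have hLsub : L ≤ U := by
    rw [hLU]
    exact H20.commutator_le_of_le_normalizer (hDn X Subgroup.le_normalizer m)
  have hLcX : ⁅L, X⁆ = ⊥ := by rw [← hDs (m + 1)]; exact hm
  have hLc : ∀ l ∈ L, ∀ x ∈ X, l * x = x * l := fun l hl x hx => by
    have := Subgroup.commutator_mem_commutator hl hx
    rw [hLcX, Subgroup.mem_bot] at this
    exact commutatorElement_eq_one_iff_mul_comm.mp this
  have hUXmem : ∀ u ∈ U, ∀ x ∈ X, ⁅u, x⁆ ∈ L := fun u hu x hx => by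
    rw [hLU]; exact Subgroup.commutator_mem_commutator hu hx
  haveI hLcomm : IsMulCommutative L :=
    IsMulCommutative.of_comm fun a b => Subtype.ext (hLc a a.2 b (hLX b.2))
  have hLG : L ≤ G := hLX.trans hXG
  have hLA : A ≤ Subgroup.normalizer (L : Set Γ) := hDn A hXA _
  have hUG : U ≤ G := hUX.trans hXG
  have hUA : A ≤ Subgroup.normalizer (U : Set Γ) := hDn A hXA _
  have hLK : K ≤ Subgroup.normalizer (L : Set Γ) := hDn K hKX _
  have hUK : K ≤ Subgroup.normalizer (U : Set Γ) := hDn K hKX _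
  have hLP : P ≤ Subgroup.normalizer (L : Set Γ) := hDn P hPX _
  -- `K` centralises `L`
  have hKL : K ≤ Subgroup.centralizer (L : Set Γ) := by
    refine H20.le_centralizer_of_commutator_eq_bot ?_
    by_contra hne
    have hVL : ⁅L, K⁆ ≤ L := H20.commutator_le_of_le_normalizer hLK
    have hPV : P ≤ Subgroup.normalizer ((⁅L, K⁆ : Subgroup Γ) : Set Γ) := by
      rw [← hPgen]
      refine sup_le (fun x hx => Subgroup.centralizer_le_normalizer _ (Subgroup.mem_centralizer_iff.mpr
        fun v hv => hLc v (hVL hv) x hx)) ?_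
      refine le_normalizer_commutator' (inf_le_left.trans hLP) ?_
      exact inf_le_right.trans (Subgroup.centralizer_le_normalizer _)
    obtain ⟨z, hz, hz1⟩ := (Subgroup.bot_or_exists_ne_one _).resolve_left
      (H33.inf_centralizer_ne_bot h.isPGroup (hXp.to_le (hVL.trans hLX)) hne hPV)
    have hzk : z ∈ (L ⊓ Subgroup.centralizer (K : Set Γ)) ⊓ ⁅L, K⁆ :=
      ⟨⟨hVL hz.1, Subgroup.mem_centralizer_iff.mpr fun k hk =>
        (Subgroup.mem_centralizer_iff.mp (hKZ hk) z ⟨hXP (hLX (hVL hz.1)), hz.2⟩).symm⟩, hz.1⟩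
    rw [H20.centralizer_inf_commutator_eq_bot hLK (H20.coprime_card_mono_right hKXc hLX),
      Subgroup.mem_bot] at hzk
    exact hz1 hzk
  -- the pairing `U × X → L`
  have hmulR : ∀ u ∈ U, ∀ x ∈ X, ∀ y ∈ X, ⁅u, x * y⁆ = ⁅u, x⁆ * ⁅u, y⁆ := by
    intro u hu x hx y hy
    have e : ⁅u, x * y⁆ = ⁅u, x⁆ * (x * ⁅u, y⁆ * x⁻¹) := by simp only [commutatorElement_def]; group
    rw [e, ← hLc _ (hUXmem u hu y hy) x hx, mul_inv_cancel_right]
  have hmulL : ∀ u ∈ U, ∀ v ∈ U, ∀ x ∈ X, ⁅u * v, x⁆ = ⁅v, x⁆ * ⁅u, x⁆ := by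
    intro u hu v hv x hx
    have e : ⁅u * v, x⁆ = u * ⁅v, x⁆ * u⁻¹ * ⁅u, x⁆ := by simp only [commutatorElement_def]; group
    rw [e, ← hLc _ (hUXmem v hv x hx) u (hUX hu), mul_inv_cancel_right]
  have hinvR : ∀ u ∈ U, ∀ x ∈ X, ⁅u, x⁻¹⁆ = ⁅u, x⁆⁻¹ := fun u hu x hx => by
    refine eq_inv_of_mul_eq_one_left ?_
    rw [← hmulR u hu x⁻¹ (inv_mem hx) x hx, inv_mul_cancel, commutatorElement_one_right]
  have hinvL : ∀ u ∈ U, ∀ x ∈ X, ⁅u⁻¹, x⁆ = ⁅u, x⁆⁻¹ := fun u hu x hx => by
    refine eq_inv_of_mul_eq_one_left ?_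
    rw [← hmulL u hu u⁻¹ (inv_mem hu) x hx, mul_inv_cancel, commutatorElement_one_left]
  let SR : (B : Subgroup Γ) → B ≤ U → Subgroup Γ → Subgroup Γ := fun B hB T =>
    { carrier := {x | x ∈ X ∧ ∀ u ∈ B, ⁅u, x⁆ ∈ T}
      one_mem' := ⟨one_mem _, fun u _ => by rw [commutatorElement_one_right]; exact one_mem _⟩
      mul_mem' := fun {x y} hx hy => ⟨mul_mem hx.1 hy.1, fun u hu => by
        rw [hmulR u (hB hu) x hx.1 y hy.1]; exact mul_mem (hx.2 u hu) (hy.2 u hu)⟩
      inv_mem' := fun {x} hx => ⟨inv_mem hx.1, fun u hu => by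
        rw [hinvR u (hB hu) x hx.1]; exact inv_mem (hx.2 u hu)⟩ }
  let SL : (B : Subgroup Γ) → B ≤ X → Subgroup Γ → Subgroup Γ := fun B hB T =>
    { carrier := {u | u ∈ U ∧ ∀ x ∈ B, ⁅u, x⁆ ∈ T}
      one_mem' := ⟨one_mem _, fun x _ => by rw [commutatorElement_one_left]; exact one_mem _⟩
      mul_mem' := fun {u v} hu hv => ⟨mul_mem hu.1 hv.1, fun x hx => by
        rw [hmulL u hu.1 v hv.1 x (hB hx)]; exact mul_mem (hv.2 x hx) (hu.2 x hx)⟩
      inv_mem' := fun {u} hu => ⟨inv_mem hu.1, fun x hx => by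
        rw [hinvL u hu.1 x (hB hx)]; exact inv_mem (hu.2 x hx)⟩ }
  have hXcoll : ∀ u ∈ U, u ∈ Subgroup.centralizer (K : Set Γ) → ∀ x ∈ X, ⁅u, x⁆ = 1 := by
    intro u hu huK
    have hle : X ≤ SR (U ⊓ Subgroup.centralizer (K : Set Γ)) inf_le_left ⊥ := by
      refine hXX.ge.trans ?_
      rw [Subgroup.commutator_le]
      intro x hx k hk
      refine ⟨H20.commutator_le_of_le_normalizer hKX (Subgroup.commutator_mem_commutator hx hk),
        fun v hv => Subgroup.mem_bot.mpr ?_⟩
      have hkx : k * x⁻¹ * k⁻¹ ∈ X := H20.conj_mem_of_le_normalizer hKX hk (inv_mem hx)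
      rw [show ⁅x, k⁆ = x * (k * x⁻¹ * k⁻¹) by simp only [commutatorElement_def]; group,
        hmulR v hv.1 x hx _ hkx]
      have hkv : k * v * k⁻¹ = v := by
        rw [Subgroup.mem_centralizer_iff.mp hv.2 k hk, mul_inv_cancel_right]
      have e : ⁅v, k * x⁻¹ * k⁻¹⁆ = k * ⁅v, x⁻¹⁆ * k⁻¹ := by
        rw [conjugate_commutatorElement, hkv]
      rw [e, hinvR v hv.1 x hx,
        ← Subgroup.mem_centralizer_iff.mp (hKL hk) _ (inv_mem (hUXmem v hv.1 x hx)),
        mul_inv_cancel_right, mul_inv_cancel]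
    exact fun x hx => Subgroup.mem_bot.mp ((hle hx).2 u ⟨hu, huK⟩)
  have hUYgen : ⁅U, K⁆ ⊔ (U ⊓ Subgroup.centralizer (K : Set Γ)) = U :=
    H20.commutator_sup_centralizer hUK (H20.coprime_card_mono_right hKXc hUX)
      (Or.inr (H20.isSolvable_of_isPGroup (hXp.to_le hUX)))
  -- `L` is centralised by `j`
  have hLi : ∀ i ∈ A, i ≠ 1 → i ∉ Subgroup.zpowers j → cen L i = ⊥ := by
    intro i hi hi1 hij
    have hiA : Subgroup.zpowers i ≤ A := Subgroup.zpowers_le.mpr hi
    have hAi : A ≤ Subgroup.normalizer (Subgroup.zpowers i : Set Γ) :=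
      H20.le_normalizer_of_le_centralizer fun a ha => Subgroup.mem_centralizer_iff.mpr fun y hy =>
        comm_of_mem h.comm (hiA hy) ha
    set L' := ⁅L, Subgroup.zpowers i⁆ with hL'
    have hL'L : L' ≤ L := H20.commutator_le_of_le_normalizer (hiA.trans hLA)
    have hSX : X ≤ SR (cen U i) inf_le_left L' := by
      conv_lhs => rw [← H20.commutator_sup_centralizer (hiA.trans hXA)
        (H20.coprime_card_mono_left (H20.coprime_card_mono_right h.cop hXG) hiA)
        (Or.inr (H20.isSolvable_of_isPGroup hXp))]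
      refine sup_le ?_ ?_
      · rw [Subgroup.commutator_le]
        intro x hx a ha
        refine ⟨H20.commutator_le_of_le_normalizer (hiA.trans hXA)
          (Subgroup.commutator_mem_commutator hx ha), fun u hu => ?_⟩
        have hax : a * x⁻¹ * a⁻¹ ∈ X := H20.conj_mem_of_le_normalizer hXA (hiA ha) (inv_mem hx)
        rw [show ⁅x, a⁆ = x * (a * x⁻¹ * a⁻¹) by simp only [commutatorElement_def]; group,
          hmulR u hu.1 x hx _ hax]
        have hau : a * u * a⁻¹ = u := by
          have hz : u ∈ Subgroup.centralizer (Subgroup.zpowers i : Set Γ) := by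
            rw [Subgroup.zpowers_eq_closure, Subgroup.centralizer_closure]; exact hu.2
          rw [Subgroup.mem_centralizer_iff.mp hz a ha, mul_inv_cancel_right]
        have e : ⁅u, a * x⁻¹ * a⁻¹⁆ = a * ⁅u, x⁻¹⁆ * a⁻¹ := by
          rw [conjugate_commutatorElement, hau]
        rw [e, hinvR u hu.1 x hx]
        have e2 : ⁅u, x⁆ * (a * ⁅u, x⁆⁻¹ * a⁻¹) = ⁅⁅u, x⁆, a⁆ := by
          simp only [commutatorElement_def]; group
        rw [e2]
        exact Subgroup.commutator_mem_commutator (hUXmem u hu.1 x hx) ha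
      · intro x hx
        refine ⟨hx.1, fun u hu => ?_⟩
        rw [commute_commutatorElement (h.abelian i hi hi1 u (cen_mono hUG i hu) x
          (mem_cen.mpr ⟨hXG hx.1, Subgroup.mem_centralizer_iff.mp hx.2 i (Subgroup.mem_zpowers i)⟩))]
        exact one_mem _
    set D' := SL X le_rfl L' with hD'
    have hD'U : D' ≤ U := fun u hu => hu.1
    have hiD : cen U i ≤ D' := fun u hu => ⟨hu.1, fun x hx => (hSX hx).2 u hu⟩
    have hL'A : A ≤ Subgroup.normalizer (L' : Set Γ) := le_normalizer_commutator' hLA hAi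
    have hD'B : ∀ B : Subgroup Γ, B ≤ Subgroup.normalizer (X : Set Γ) →
        B ≤ Subgroup.normalizer (U : Set Γ) → B ≤ Subgroup.normalizer (L' : Set Γ) →
        B ≤ Subgroup.normalizer (D' : Set Γ) := by
      intro B hBX hBU hBL
      rw [Subgroup.le_normalizer_iff]
      intro g hg u hu
      refine ⟨H20.conj_mem_of_le_normalizer hBU hg hu.1, fun x hx => ?_⟩
      have hx' : g⁻¹ * x * g ∈ X := H20.inv_conj_mem_of_le_normalizer hBX hg hx
      have e : ⁅g * u * g⁻¹, x⁆ = g * ⁅u, g⁻¹ * x * g⁆ * g⁻¹ := by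
        rw [conjugate_commutatorElement]; congr 1; group
      rw [e]
      exact H20.conj_mem_of_le_normalizer hBL hg (hu.2 _ hx')
    have hKL' : K ≤ Subgroup.normalizer (L' : Set Γ) :=
      (hKL.trans (Subgroup.centralizer_le hL'L)).trans (Subgroup.centralizer_le_normalizer _)
    set Y := ⁅U, K⁆ with hY
    have hYU : Y ≤ U := H20.commutator_le_of_le_normalizer hUK
    have hYA : A ≤ Subgroup.normalizer (Y : Set Γ) := le_normalizer_commutator' hUA hKA
    have hYK : K ≤ Subgroup.normalizer (Y : Set Γ) := Subgroup.normalizer_commutator_ge_right U K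
    have hUKc := H20.coprime_card_mono_right hKXc hUX
    have hYY : ⁅Y, K⁆ = Y :=
      H20.commutator_commutator_eq hUK hUKc (Or.inr (H20.isSolvable_of_isPGroup (hXp.to_le hUX)))
    have hYD : Y ≤ D' ⊓ Y := by
      refine h.toSetting.le_of_fixed_commutators hj hj1 hi hi1 hij hKj hKA (hYU.trans hUG) hYA hYK
        (H20.coprime_card_mono_right hUKc hYU) hYY.ge inf_le_right
        (H20.le_normalizer_inf (hD'B A hXA hUA hL'A) hYA) (H20.le_normalizer_inf (hD'B K hKX hUK hKL') hYK)
        ?_ ?_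
      · refine le_inf ?_ (Subgroup.commutator_le_self Y)
        refine ((Subgroup.commutator_mono hYU (hYU.trans hUX)).trans hLU.ge).trans fun l hl => ?_
        refine ⟨hLsub hl, fun x hx => ?_⟩
        rw [commute_commutatorElement (hLc l hl x hx)]
        exact one_mem _
      · intro y hy k hk
        have hyD : y ∈ D' ⊓ Y := ⟨hiD (cen_mono hYU i hy), hy.1⟩
        rw [show ⁅y, k⁆ = y * (k * y⁻¹ * k⁻¹) by simp only [commutatorElement_def]; group]
        exact mul_mem hyD (H20.conj_mem_of_le_normalizer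
          (H20.le_normalizer_inf (hD'B K hKX hUK hKL') hYK) hk (inv_mem hyD))
    have hUD : U ≤ D' := by
      rw [← hUYgen]
      exact sup_le (hYD.trans inf_le_left) fun u hu =>
        ⟨hu.1, fun x hx => by rw [hXcoll u hu.1 hu.2 x hx]; exact one_mem _⟩
    have hLL' : L ≤ L' := by
      rw [hLU, Subgroup.commutator_le]
      exact fun u hu x hx => (hUD hu).2 x hx
    rw [eq_bot_iff]
    intro l hl
    have hl2 : l ∈ (L ⊓ Subgroup.centralizer (Subgroup.zpowers i : Set Γ)) ⊓ ⁅L, Subgroup.zpowers i⁆ := by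
      refine ⟨⟨hl.1, ?_⟩, hLL' hl.1⟩
      rw [Subgroup.zpowers_eq_closure, Subgroup.centralizer_closure]
      exact hl.2
    rwa [H20.centralizer_inf_commutator_eq_bot (hiA.trans hLA)
      (H20.coprime_card_mono_left (H20.coprime_card_mono_right h.cop hLG) hiA)] at hl2
  have hLj : L ≤ cen G j := h.toHyp.le_of_cen_le hLG hLA fun c hc hc1 => by
    by_cases hcj : c ∈ Subgroup.zpowers j
    · rw [h.toHyp.cen_eq_of_mem_zpowers hc hc1 hj hj1 hcj]
      exact cen_mono hLG j
    · rw [hLi c hc hc1 hcj]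
      exact bot_le
  -- `L` is central in `P`
  have hLZ : L ≤ Z := by
    refine le_inf (hLX.trans hXP) ?_
    have hP : P ≤ Subgroup.centralizer (L : Set Γ) := h.toHyp.le_of_cen_le h.le h.inv fun c hc hc1 => by
      by_cases hcj : c ∈ Subgroup.zpowers j
      · intro x hx
        rw [h.toHyp.cen_eq_of_mem_zpowers hc hc1 hj hj1 hcj] at hx
        exact Subgroup.mem_centralizer_iff.mpr fun l hl =>
          h.abelian j hj hj1 l (hLj hl) x (cen_mono h.le j hx)
      · exact h.toSetting.le_centralizer_of_normalizes hj hj1 hc hc1 hcj hLj (cen_mono h.le c)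
          (h.le_normalizer_cen hc h.inv) (inf_le_left.trans hLP)
    exact fun l hl => Subgroup.mem_centralizer_iff.mpr fun x hx =>
      (Subgroup.mem_centralizer_iff.mp (hP hx) l hl).symm
  -- `L` is centralised by all fixed-point subgroups
  have hLb : ∀ b ∈ A, b ≠ 1 → b ∉ Subgroup.zpowers j → cen G b ≤ Subgroup.centralizer (L : Set Γ) := by
    intro b hb hb1 hbj x hx
    set Xb := cen X b with hXbdef
    have hXbA : A ≤ Subgroup.normalizer (Xb : Set Γ) := h.le_normalizer_cen hb hXA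
    have hXb : Xb ≠ ⊥ := by
      intro e
      have hle := h.toSetting.le_of_fixed_commutators hj hj1 hb hb1 hbj hKj hKA hXG hXA hKX hKXc
        hXX.ge (Subgroup.commutator_le_self X) (le_normalizer_commutator' hXA hXA)
        (le_normalizer_commutator' hKX hKX) le_rfl (fun y hy l _ => by
          rw [← hXbdef, e, Subgroup.mem_bot] at hy
          rw [hy, commutatorElement_one_left]
          exact one_mem _)
      haveI : Group.IsSolvable X := H20.isSolvable_of_isPGroup hXp
      haveI : Nontrivial X := X.nontrivial_iff_ne_bot.mpr hXne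
      have hlt := Group.IsSolvable.commutator_lt_top_of_nontrivial X
      rw [← Subgroup.map_subtype_lt_map_subtype, Subgroup.map_subtype_commutator, ← MonoidHom.range_eq_map,
        Subgroup.range_subtype] at hlt
      exact hlt.not_ge hle
    set H := G ⊓ Subgroup.centralizer (Xb : Set Γ) with hH
    have hHA : A ≤ Subgroup.normalizer (H : Set Γ) :=
      H20.le_normalizer_inf h.norm (H20.le_normalizer_centralizer hXbA)
    have hHs : Group.IsSolvable H := h.sub H inf_le_left
      (h.centralizer_ne (inf_le_left.trans hXG) hXbA hXb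
        (H20.isSolvable_of_isPGroup (hXp.to_le inf_le_left))) hHA
    obtain ⟨W, hWH, hWA, hHW, hWp, hfac, -⟩ := h.exists_local_core inf_le_left hHA hHs
    have hZH : Z ≤ H := le_inf h.zc_le fun z hz => Subgroup.mem_centralizer_iff.mpr fun y hy =>
      Subgroup.mem_centralizer_iff.mp hz.2 y (hXP hy.1)
    have hxH : x ∈ H := ⟨hx.1, Subgroup.mem_centralizer_iff.mpr fun v hv =>
      h.abelian b hb hb1 v (cen_mono hXG b hv) x hx⟩
    obtain ⟨w, hw, n, hn, rfl⟩ := hfac x hxH
    refine mul_mem ?_ (Subgroup.centralizer_le hLZ (h.normalizer_le (P ⊓ H) (le_inf inf_le_left hZH)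
      inf_le_left (H20.le_normalizer_inf h.inv hHA) ⟨hn.1.1, hn.2⟩))
    have hWG : W ≤ G := hWH.trans inf_le_left
    have hLW : L ≤ Subgroup.normalizer (W : Set Γ) := (hLZ.trans hZH).trans hHW
    have hCW : A ≤ Subgroup.normalizer ((Subgroup.centralizer (W : Set Γ) : Subgroup Γ) : Set Γ) :=
      H20.le_normalizer_centralizer hWA
    set T := Subgroup.centralizer (W : Set Γ) with hT
    have hUT : U ≤ SL Xb inf_le_left T := by
      refine h.toHyp.le_of_cen_le hUG hUA fun c hc hc1 u hu => ⟨hu.1, fun y hy => ?_⟩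
      by_cases hcj : c ∈ Subgroup.zpowers j
      · have huj : u ∈ cen U j := by
          rw [← h.toHyp.cen_eq_of_mem_zpowers hc hc1 hj hj1 hcj]; exact hu
        let f : Xb → Xb := fun v => ⟨(v : Γ)⁻¹ * (j * v * j⁻¹),
          mul_mem (inv_mem v.2) (H20.conj_mem_of_le_normalizer hXbA hj v.2)⟩
        have hf : Function.Injective f := by
          intro v v' hvv
          have h1 : (v : Γ)⁻¹ * (j * v * j⁻¹) = (v' : Γ)⁻¹ * (j * v' * j⁻¹) := congrArg Subtype.val hvv
          have h2 : j * ((v : Γ) * (v' : Γ)⁻¹) * j⁻¹ = (v : Γ) * (v' : Γ)⁻¹ := by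
            calc j * ((v : Γ) * (v' : Γ)⁻¹) * j⁻¹
                = v * ((v : Γ)⁻¹ * (j * v * j⁻¹)) * (j * v' * j⁻¹)⁻¹ := by group
              _ = (v : Γ) * (v' : Γ)⁻¹ := by rw [h1]; group
          exact mul_inv_eq_one.mp (Subtype.ext (h.toSetting.eq_one_of_two hj hb hb1
            (h.toHyp.notMem_zpowers_symm hb hb1 hj hj1 hbj)
            (mem_cen.mpr ⟨hXG (v * v'⁻¹).2.1, mul_inv_eq_iff_eq_mul.mp h2⟩) (cen_mono hXG b (v * v'⁻¹).2)))
        obtain ⟨⟨v, hv⟩, hfv⟩ := Finite.surjective_of_injective hf ⟨y, hy⟩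
        have hy' : v⁻¹ * (j * v * j⁻¹) = y := congrArg Subtype.val hfv
        have hju : j * u * j⁻¹ = u := by rw [(mem_cen.mp huj).2, mul_inv_cancel_right]
        have hjl := (mem_cen.mp (hLj (hUXmem u hu.1 v hv.1))).2
        rw [← hy', hmulR u hu.1 _ (inv_mem hv.1) _ (H20.conj_mem_of_le_normalizer hXA hj hv.1),
          hinvR u hu.1 v hv.1]
        have e : ⁅u, j * v * j⁻¹⁆ = ⁅u, v⁆ := by
          have e1 : j * ⁅u, v⁆ * j⁻¹ = ⁅u, j * v * j⁻¹⁆ := by rw [conjugate_commutatorElement, hju]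
          rw [← e1, hjl, mul_inv_cancel_right]
        rw [e, inv_mul_cancel]
        exact one_mem _
      · set S := Subgroup.centralizer ((cen W c : Subgroup Γ) : Set Γ) with hS
        have h1 : u ∈ S := Subgroup.mem_centralizer_iff.mpr fun w' hw' =>
          h.abelian c hc hc1 w' (cen_mono hWG c hw') u (cen_mono hUG c hu)
        have h2 : y ∈ S := Subgroup.mem_centralizer_iff.mpr fun w' hw' =>
          (Subgroup.mem_centralizer_iff.mp (hWH hw'.1).2 y hy).symm
        have huy : ⁅u, y⁆ ∈ L ⊓ S := ⟨hUXmem u hu.1 y hy.1, by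
          rw [commutatorElement_def]
          exact S.mul_mem (S.mul_mem (S.mul_mem h1 h2) (S.inv_mem h1)) (S.inv_mem h2)⟩
        refine h.toSetting.le_centralizer_of_cen hj hj1 hc hc1 hcj (inf_le_left.trans hLj)
          (H20.le_normalizer_inf hLA (H20.le_normalizer_centralizer (h.le_normalizer_cen hc hWA)))
          hWG hWA (inf_le_left.trans hLW) (H20.isSolvable_of_le hWH hHs)
          (H20.coprime_card_mono_left (h.coprime_of_coprime hWp) (inf_le_left.trans (hLX.trans hXP)))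
          ?_ huy
        exact fun w' hw' => Subgroup.mem_centralizer_iff.mpr fun l hl =>
          (Subgroup.mem_centralizer_iff.mp hl.2 w' hw').symm
    set D2 := SR U le_rfl T with hD2
    have hD2B : ∀ B : Subgroup Γ, B ≤ Subgroup.normalizer (X : Set Γ) →
        B ≤ Subgroup.normalizer (U : Set Γ) → (∀ g ∈ B, ∀ l ∈ L ⊓ T, g * l * g⁻¹ ∈ T) →
        B ≤ Subgroup.normalizer (D2 : Set Γ) := by
      intro B hBX hBU hBT
      rw [Subgroup.le_normalizer_iff]
      intro g hg y hy
      refine ⟨H20.conj_mem_of_le_normalizer hBX hg hy.1, fun u hu => ?_⟩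
      have hu' : g⁻¹ * u * g ∈ U := H20.inv_conj_mem_of_le_normalizer hBU hg hu
      have e : ⁅u, g * y * g⁻¹⁆ = g * ⁅g⁻¹ * u * g, y⁆ * g⁻¹ := by
        rw [conjugate_commutatorElement]; congr 1; group
      rw [e]
      exact hBT g hg _ ⟨hUXmem _ hu' y hy.1, hy.2 _ hu'⟩
    have hD2K : K ≤ Subgroup.normalizer (D2 : Set Γ) := hD2B K hKX hUK fun k hk l hl => by
      rw [← Subgroup.mem_centralizer_iff.mp (hKL hk) l hl.1, mul_inv_cancel_right]
      exact hl.2
    have hrot : ∀ u ∈ U, ∀ z ∈ ⁅X, X⁆, ⁅u, z⁆ = 1 := by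
      have h1 : ⁅⁅X, U⁆, X⁆ = ⊥ := by rw [Subgroup.commutator_comm X U, ← hLU, hLcX]
      have h2 : ⁅⁅U, X⁆, X⁆ = ⊥ := by rw [← hLU, hLcX]
      have h3 := Subgroup.commutator_commutator_eq_bot_of_rotate h1 h2
      intro u hu z hz
      have h4 := Subgroup.commutator_mem_commutator hz hu
      rw [h3, Subgroup.mem_bot] at h4
      exact commute_commutatorElement (commutatorElement_eq_one_iff_commute.mp h4).symm
    have hX2 : X ≤ D2 := by
      refine h.toSetting.le_of_fixed_commutators hj hj1 hb hb1 hbj hKj hKA hXG hXA hKX hKXc hXX.ge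
        (fun y hy => hy.1)
        (hD2B A hXA hUA fun a ha l hl => H20.conj_mem_of_le_normalizer hCW ha hl.2) hD2K ?_ ?_
      · intro z hz
        exact ⟨Subgroup.commutator_le_self X hz, fun u hu => by rw [hrot u hu z hz]; exact one_mem _⟩
      · intro y hy k hk
        have hyD : y ∈ D2 := ⟨hy.1, fun u hu => (hUT hu).2 y hy⟩
        rw [show ⁅y, k⁆ = y * (k * y⁻¹ * k⁻¹) by simp only [commutatorElement_def]; group]
        exact mul_mem hyD (H20.conj_mem_of_le_normalizer hD2K hk (inv_mem hyD))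
    have hLT : L ≤ T := by
      rw [hLU, Subgroup.commutator_le]
      exact fun u hu y hy => (hX2 hy).2 u hu
    exact Subgroup.mem_centralizer_iff.mpr fun l hl =>
      (Subgroup.mem_centralizer_iff.mp (hLT hl) w hw).symm
  refine h.centralizer_ne hLG hLA hUne (H20.isSolvable_of_isMulCommutative L)
    (le_antisymm inf_le_left (le_inf le_rfl ?_))
  refine h.toHyp.le_of_cen_le le_rfl h.norm fun c hc hc1 => ?_
  by_cases hcj : c ∈ Subgroup.zpowers j
  · rw [h.toHyp.cen_eq_of_mem_zpowers hc hc1 hj hj1 hcj]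
    exact fun y hy => Subgroup.mem_centralizer_iff.mpr fun l hl => h.abelian j hj hj1 l (hLj hl) y hy
  · exact hLb c hc hc1 hcj

end Local

end Cfsg.Agent.H77.CentSq
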