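import Cfsg.Agent.H77.CentralizerSquare.Solvable

/-!
A minimal counterexample: proper invariant subgroups are solvable and there is no proper
nontrivial invariant normal subgroup. Local tools and the factorisation lemma.
-/

set_option autoImplicit false
open scoped Pointwise commutatorElement

namespace Cfsg.Agent.H77.CentSq

universe u

variable {Γ : Type u} [Group Γ]

/-- `H` is covered by `K` modulo `M` iff the indices of `M` agree. -/
theorem cover_iff [Finite Γ] {K Y M : Subgroup Γ} (hKY : K ≤ Y) :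
    (∀ y ∈ Y, ∃ k ∈ K, k⁻¹ * y ∈ M) ↔ M.relIndex K = M.relIndex Y := by
  let F := Subgroup.quotientSubgroupOfEmbeddingOfLE M hKY
  constructor
  · intro hcov
    refine Nat.card_eq_of_bijective F ⟨F.injective, fun x => ?_⟩
    obtain ⟨y, rfl⟩ := QuotientGroup.mk_surjective x
    obtain ⟨k, hk, hky⟩ := hcov y y.2
    refine ⟨QuotientGroup.mk ⟨k, hk⟩, ?_⟩
    rw [Subgroup.quotientSubgroupOfEmbeddingOfLE_apply_mk, QuotientGroup.eq, Subgroup.mem_subgroupOf]
    simpa using hky
  · intro hcard y hy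
    obtain ⟨x, hx⟩ := (F.injective.bijective_of_nat_card_le hcard.ge).2 (QuotientGroup.mk ⟨y, hy⟩)
    obtain ⟨k, rfl⟩ := QuotientGroup.mk_surjective x
    rw [Subgroup.quotientSubgroupOfEmbeddingOfLE_apply_mk, QuotientGroup.eq,
      Subgroup.mem_subgroupOf] at hx
    exact ⟨k, k.2, by simpa using hx⟩

theorem card_mul_relIndex (M K : Subgroup Γ) :
    M.relIndex K * Nat.card (M ⊓ K : Subgroup Γ) = Nat.card K := by
  rw [← Subgroup.inf_relIndex_right, ← Subgroup.relIndex_bot_left (M ⊓ K), mul_comm,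
    Subgroup.relIndex_mul_relIndex ⊥ (M ⊓ K) K bot_le inf_le_right, Subgroup.relIndex_bot_left]

namespace Setting

variable {q : ℕ} {A G : Subgroup Γ} (h : Setting q A G)
include h

/-- The invariant Sylow subgroup meets invariant subgroups in their Sylow subgroups. -/
theorem card_inf_sylow [Finite Γ] {p : ℕ} [Fact p.Prime] {P : Subgroup Γ} (hP : P ≤ G)
    (hPA : A ≤ Subgroup.normalizer (P : Set Γ)) (hPc : Nat.card P = p ^ (Nat.card G).factorization p)
    {H : Subgroup Γ} (hH : H ≤ G) (hHA : A ≤ Subgroup.normalizer (H : Set Γ)) :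
    Nat.card (P ⊓ H : Subgroup Γ) = p ^ (Nat.card H).factorization p := by
  have hr := h.restrict hH hHA
  obtain ⟨S, hSH, hSA, hSp, hSc⟩ := H20.exists_invariant_sylow_subgroup hHA hr.cop
    (Or.inl (haveI := h.comm; H20.isSolvable_of_isMulCommutative A)) p
  have hSP : S ≤ P ⊓ H := le_inf (h.le_of_isPGroup hP hPA hPc (hSH.trans hH) hSA hSp) hSH
  refine Nat.dvd_antisymm ?_ (hSc ▸ Subgroup.card_dvd_of_le hSP)
  obtain ⟨k, hk⟩ := ((IsPGroup.of_card hPc).to_le (inf_le_left : P ⊓ H ≤ P)).exists_card_eq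
  rw [hk]
  refine pow_dvd_pow p (((Fact.out : p.Prime).pow_dvd_iff_le_factorization Nat.card_pos.ne').mp ?_)
  exact hk ▸ Subgroup.card_dvd_of_le inf_le_right

/-- An invariant abelian subgroup is the product of its part in the invariant Sylow subgroup and an
invariant `p'`-part. -/
theorem exists_pPrimePart [Finite Γ] {p : ℕ} [Fact p.Prime] {P : Subgroup Γ} (hP : P ≤ G)
    (hPA : A ≤ Subgroup.normalizer (P : Set Γ)) (hPc : Nat.card P = p ^ (Nat.card G).factorization p)
    {X : Subgroup Γ} (hX : X ≤ G) (hXA : A ≤ Subgroup.normalizer (X : Set Γ))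
    (hXc : ∀ x ∈ X, ∀ y ∈ X, x * y = y * x) :
    ∃ K : Subgroup Γ, K ≤ X ∧ A ≤ Subgroup.normalizer (K : Set Γ) ∧
      (Nat.card K).Coprime (Nat.card P) ∧ X ≤ P ⊔ K := by
  have hp : p.Prime := Fact.out
  let K : Subgroup Γ :=
    { carrier := {x | x ∈ X ∧ (orderOf x).Coprime p}
      one_mem' := ⟨one_mem _, by simp⟩
      mul_mem' := fun {x y} hx hy => ⟨mul_mem hx.1 hy.1, Nat.Coprime.coprime_dvd_left
        ((show Commute x y from hXc x hx.1 y hy.1).orderOf_mul_dvd_lcm.trans (Nat.lcm_dvd_mul _ _))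
        (hx.2.mul_left hy.2)⟩
      inv_mem' := fun {x} hx => ⟨inv_mem hx.1, by rw [orderOf_inv]; exact hx.2⟩ }
  let U : Subgroup Γ :=
    { carrier := {x | x ∈ X ∧ ∃ k : ℕ, x ^ p ^ k = 1}
      one_mem' := ⟨one_mem _, 0, one_pow _⟩
      mul_mem' := by
        rintro x y ⟨hx, i, hi⟩ ⟨hy, k, hk⟩
        refine ⟨mul_mem hx hy, i + k, ?_⟩
        rw [(show Commute x y from hXc x hx y hy).mul_pow, pow_add, pow_mul, hi, one_pow, one_mul,
          mul_comm, pow_mul, hk, one_pow]
      inv_mem' := by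
        rintro x ⟨hx, i, hi⟩
        exact ⟨inv_mem hx, i, by rw [inv_pow, hi, inv_one]⟩ }
  have hU : U ≤ P := by
    refine h.le_of_isPGroup hP hPA hPc (fun x hx => hX hx.1) ?_ ?_
    · rw [Subgroup.le_normalizer_iff]
      rintro a ha x ⟨hx, i, hi⟩
      exact ⟨H20.conj_mem_of_le_normalizer hXA ha hx, i, by rw [conj_pow, hi]; group⟩
    · rintro ⟨x, hx, i, hi⟩
      exact ⟨i, Subtype.ext hi⟩
  refine ⟨K, fun x hx => hx.1, ?_, ?_, fun x hx => ?_⟩
  · rw [Subgroup.le_normalizer_iff]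
    rintro a ha x ⟨hx, hxp⟩
    refine ⟨H20.conj_mem_of_le_normalizer hXA ha hx, ?_⟩
    rw [show a * x * a⁻¹ = MulAut.conj a x from rfl, MulEquiv.orderOf_eq]
    exact hxp
  · rw [hPc]
    refine Nat.Coprime.pow_right _ (hp.coprime_iff_not_dvd.mpr fun hd => ?_).symm
    obtain ⟨x, hx⟩ := exists_prime_orderOf_dvd_card' p hd
    have h1 := x.2.2
    rw [Subgroup.orderOf_coe, hx, Nat.coprime_self] at h1
    exact hp.one_lt.ne' h1
  · obtain ⟨e, m, hm, hn⟩ :=
      Nat.exists_eq_pow_mul_and_not_dvd (orderOf_pos x).ne' p hp.one_lt.ne'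
    have h1 : x ^ p ^ e ∈ K := by
      refine ⟨pow_mem hx _, ?_⟩
      rw [orderOf_pow_of_dvd (pow_ne_zero _ hp.ne_zero) ⟨m, hn⟩, hn,
        Nat.mul_div_cancel_left _ (pow_pos hp.pos e)]
      exact (hp.coprime_iff_not_dvd.mpr hm).symm
    have h2 : x ^ m ∈ U := ⟨pow_mem hx _, e, by rw [← pow_mul, mul_comm, ← hn, pow_orderOf_eq_one]⟩
    have hg : (p ^ e).gcd m = 1 := (hp.coprime_iff_not_dvd.mpr hm).pow_left e
    have e1 : x = (x ^ p ^ e) ^ Nat.gcdA (p ^ e) m * (x ^ m) ^ Nat.gcdB (p ^ e) m := by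
      rw [← zpow_natCast x (p ^ e), ← zpow_natCast x m, ← zpow_mul, ← zpow_mul, ← zpow_add,
        ← Nat.gcd_eq_gcd_ab, hg, Nat.cast_one, zpow_one]
    rw [e1]
    exact mul_mem (Subgroup.mem_sup_right (zpow_mem h1 _)) (Subgroup.mem_sup_left (zpow_mem (hU h2) _))

end Setting

/-- The minimal counterexample. -/
structure Min (q : ℕ) (A G : Subgroup Γ) : Prop extends Setting q A G where
  notSolvable : ¬ Group.IsSolvable G
  sub : ∀ H : Subgroup Γ, H ≤ G → H ≠ G → A ≤ Subgroup.normalizer (H : Set Γ) → Group.IsSolvable H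
  simple : ∀ N : Subgroup Γ, N ≤ G → A ≤ Subgroup.normalizer (N : Set Γ) →
    G ≤ Subgroup.normalizer (N : Set Γ) → N = ⊥ ∨ N = G

namespace Min

variable {q : ℕ} {A G : Subgroup Γ} (h : Min q A G)
include h

theorem eq_bot_of_normal {N : Subgroup Γ} (hN : N ≤ G) (hNA : A ≤ Subgroup.normalizer (N : Set Γ))
    (hGN : G ≤ Subgroup.normalizer (N : Set Γ)) (hs : Group.IsSolvable N) : N = ⊥ :=
  (h.simple N hN hNA hGN).resolve_right fun e => h.notSolvable (e ▸ hs)

theorem normalizer_ne {X : Subgroup Γ} (hX : X ≤ G) (hXA : A ≤ Subgroup.normalizer (X : Set Γ))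
    (hne : X ≠ ⊥) (hs : Group.IsSolvable X) : G ⊓ Subgroup.normalizer (X : Set Γ) ≠ G :=
  fun e => hne (h.eq_bot_of_normal hX hXA (inf_eq_left.mp e) hs)

theorem centralizer_ne {X : Subgroup Γ} (hX : X ≤ G) (hXA : A ≤ Subgroup.normalizer (X : Set Γ))
    (hne : X ≠ ⊥) (hs : Group.IsSolvable X) : G ⊓ Subgroup.centralizer (X : Set Γ) ≠ G :=
  fun e => hne (h.eq_bot_of_normal hX hXA
    ((inf_eq_left.mp e).trans (Subgroup.centralizer_le_normalizer (X : Set Γ))) hs)

/-- **Factorisation lemma.** A proper invariant subgroup containing `C(b)` for all `b ∉ ⟨j⟩`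
meets `C(j)` trivially. -/
theorem cen_eq_bot_of_factor [Finite Γ] {M : Subgroup Γ} (hM : M ≤ G)
    (hMA : A ≤ Subgroup.normalizer (M : Set Γ)) (hMne : M ≠ G) {j : Γ} (hj : j ∈ A) (hj1 : j ≠ 1)
    (hcen : ∀ b ∈ A, b ≠ 1 → b ∉ Subgroup.zpowers j → cen G b ≤ M) : cen M j = ⊥ := by
  have hCA : A ≤ Subgroup.normalizer ((cen G j : Subgroup Γ) : Set Γ) := h.le_normalizer_cen hj h.norm
  -- invariant nilpotent subgroups are covered
  have hcov : ∀ n, ∀ Y : Subgroup Γ, Nat.card Y ≤ n → Y ≤ G → A ≤ Subgroup.normalizer (Y : Set Γ) →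
      Group.IsSolvable Y → ∀ y ∈ Y, ∃ c ∈ cen Y j, c⁻¹ * y ∈ M := by
    intro n
    induction n with
    | zero => exact fun Y hY _ _ _ => absurd hY (Nat.not_le.mpr Nat.card_pos)
    | succ n ih =>
      intro Y hn hY hYA hYs y hy
      by_cases hY1 : Y = ⊥
      · subst hY1
        rw [Subgroup.mem_bot] at hy
        exact ⟨1, one_mem _, by rw [hy]; simp⟩
      set Y1 := ⁅Y, Y⁆ with hY1def
      have hY1Y : Y1 ≤ Y := Subgroup.commutator_le_self Y
      have hY1lt : Y1 < Y := by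
        haveI := hYs
        haveI : Nontrivial Y := Y.nontrivial_iff_ne_bot.mpr hY1
        have hlt := Group.IsSolvable.commutator_lt_top_of_nontrivial Y
        rwa [← Subgroup.map_subtype_lt_map_subtype, Subgroup.map_subtype_commutator,
          ← MonoidHom.range_eq_map, Subgroup.range_subtype] at hlt
      have hlt : Nat.card Y1 ≤ n := by
        by_contra hc
        exact hY1lt.ne (Subgroup.eq_of_le_of_card_ge hY1lt.le (by omega))
      have hYY1 : Y ≤ Subgroup.normalizer (Y1 : Set Γ) :=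
        le_normalizer_commutator' Subgroup.le_normalizer Subgroup.le_normalizer
      set D := cen Y j ⊔ Y1 with hD
      have hDY : D ≤ Y := sup_le inf_le_left hY1Y
      have hYD : Y ≤ Subgroup.normalizer (D : Set Γ) := by
        rw [Subgroup.le_normalizer_iff]
        intro a ha d hd
        have e : a * d * a⁻¹ = ⁅a, d⁆ * d := by simp [commutatorElement_def]
        rw [e]
        exact mul_mem (Subgroup.mem_sup_right (Subgroup.commutator_mem_commutator ha (hDY hd))) hd
      have hgen : Y ≤ D ⊔ (Y ⊓ M) := by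
        refine h.toHyp.le_of_cen_le hY hYA fun b hb hb1 => ?_
        by_cases hbj : b ∈ Subgroup.zpowers j
        · rw [h.toHyp.cen_eq_of_mem_zpowers hb hb1 hj hj1 hbj]
          exact le_sup_left.trans le_sup_left
        · exact le_sup_of_le_right (le_inf inf_le_left ((cen_mono hY b).trans (hcen b hb hb1 hbj)))
      have hy' : y ∈ (D : Set Γ) * ((Y ⊓ M : Subgroup Γ) : Set Γ) := by
        rw [← Subgroup.coe_mul_of_right_le_normalizer_left D (Y ⊓ M) (inf_le_left.trans hYD)]
        exact hgen hy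
      obtain ⟨d, hd, m, hm, rfl⟩ := hy'
      have hd' : d ∈ ((cen Y j : Subgroup Γ) : Set Γ) * (Y1 : Set Γ) := by
        rw [← Subgroup.coe_mul_of_left_le_normalizer_right (cen Y j) Y1 (inf_le_left.trans hYY1)]
        exact hd
      obtain ⟨c, hc, z, hz, rfl⟩ := hd'
      obtain ⟨c', hc', hz'⟩ := ih Y1 hlt (hY1Y.trans hY) (le_normalizer_commutator' hYA hYA)
        (H20.isSolvable_of_le hY1Y hYs) z hz
      refine ⟨c * c', mul_mem hc (cen_mono hY1Y j hc'), ?_⟩
      have : (c * c')⁻¹ * (c * z * m) = (c'⁻¹ * z) * m := by group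
      show (c * c')⁻¹ * (c * z * m) ∈ M
      rw [this]
      exact mul_mem hz' hm.2
  -- counting
  have hidx : M.relIndex (cen G j) = M.relIndex G := by
    refine Nat.eq_of_factorization_eq Subgroup.index_ne_zero_of_finite
      Subgroup.index_ne_zero_of_finite fun r => ?_
    by_cases hr : r.Prime
    swap
    · simp [Nat.factorization_eq_zero_of_not_prime _ hr]
    haveI := Fact.mk hr
    obtain ⟨R, hRG, hRA, hRp, hRc⟩ := H20.exists_invariant_sylow_subgroup h.norm h.cop
      (Or.inl (haveI := h.comm; H20.isSolvable_of_isMulCommutative A)) r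
    have h1 : M.relIndex (cen R j) = M.relIndex R :=
      (cover_iff inf_le_left).mp (hcov _ R le_rfl hRG hRA (H20.isSolvable_of_isPGroup hRp))
    have e1 := card_mul_relIndex M R
    have e2 := card_mul_relIndex M (cen R j)
    have eM : Nat.card (M ⊓ R : Subgroup Γ) = r ^ (Nat.card M).factorization r := by
      rw [inf_comm]; exact h.card_inf_sylow hRG hRA hRc hM hMA
    have eC : Nat.card (cen R j) = r ^ (Nat.card (cen G j)).factorization r := by
      rw [← h.card_inf_sylow hRG hRA hRc inf_le_left hCA]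
      congr 2
      ext x
      simp only [Subgroup.mem_inf]
      exact ⟨fun ⟨a, b⟩ => ⟨a, hRG a, b⟩, fun ⟨a, _, b⟩ => ⟨a, b⟩⟩
    have eMC : Nat.card (M ⊓ cen R j : Subgroup Γ) =
        r ^ (Nat.card (M ⊓ cen G j : Subgroup Γ)).factorization r := by
      rw [← h.card_inf_sylow hRG hRA hRc (inf_le_left.trans hM) (H20.le_normalizer_inf hMA hCA)]
      congr 2
      ext x
      simp only [Subgroup.mem_inf]
      exact ⟨fun ⟨a, b, c⟩ => ⟨b, a, hRG b, c⟩, fun ⟨b, a, _, c⟩ => ⟨a, b, c⟩⟩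
    rw [h1, eMC, eC] at e2
    rw [eM, hRc] at e1
    have f1 := congrArg (fun n => n.factorization r) (card_mul_relIndex M G)
    have f2 := congrArg (fun n => n.factorization r) (card_mul_relIndex M (cen G j))
    have hne : ∀ K : Subgroup Γ, M.relIndex K ≠ 0 := fun K => Subgroup.index_ne_zero_of_finite
    simp only [Nat.factorization_mul (hne _) Nat.card_pos.ne', Finsupp.add_apply,
      inf_eq_left.mpr hM] at f1 f2
    have key : r ^ ((Nat.card G).factorization r +
          (Nat.card (M ⊓ cen G j : Subgroup Γ)).factorization r) =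
        r ^ ((Nat.card M).factorization r + (Nat.card (cen G j)).factorization r) := by
      rw [pow_add, pow_add, ← e1, ← e2]; ring
    have := Nat.pow_right_injective hr.two_le key
    omega
  have hGcov := (cover_iff (inf_le_left : cen G j ≤ G)).mpr hidx
  -- the core of `M`
  let N : Subgroup Γ :=
    { carrier := {x | x ∈ G ∧ ∀ g ∈ G, g * x * g⁻¹ ∈ M}
      one_mem' := ⟨one_mem _, fun g _ => by simp⟩
      mul_mem' := fun {x y} hx hy => ⟨mul_mem hx.1 hy.1, fun g hg => by
        simpa [mul_assoc] using mul_mem (hx.2 g hg) (hy.2 g hg)⟩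
      inv_mem' := fun {x} hx => ⟨inv_mem hx.1, fun g hg => by
        simpa [mul_assoc] using inv_mem (hx.2 g hg)⟩ }
  have hNM : N ≤ M := fun x hx => by simpa using hx.2 1 (one_mem _)
  have hGN : G ≤ Subgroup.normalizer (N : Set Γ) := by
    rw [Subgroup.le_normalizer_iff]
    rintro g hg x ⟨hx, hx'⟩
    refine ⟨mul_mem (mul_mem hg hx) (inv_mem hg), fun k hk => ?_⟩
    simpa [mul_assoc] using hx' (k * g) (mul_mem hk hg)
  have hNA : A ≤ Subgroup.normalizer (N : Set Γ) := by
    rw [Subgroup.le_normalizer_iff]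
    rintro a ha x ⟨hx, hx'⟩
    refine ⟨H20.conj_mem_of_le_normalizer h.norm ha hx, fun g hg => ?_⟩
    have := H20.conj_mem_of_le_normalizer hMA ha
      (hx' (a⁻¹ * g * a) (H20.inv_conj_mem_of_le_normalizer h.norm ha hg))
    simpa [mul_assoc] using this
  have hNbot : N = ⊥ := (h.simple N (hNM.trans hM) hNA hGN).resolve_right
    fun e => hMne (le_antisymm hM (e ▸ hNM))
  rw [eq_bot_iff, ← hNbot]
  intro x hx
  refine ⟨hM hx.1, fun g hg => ?_⟩
  obtain ⟨c, hc, hcg⟩ := hGcov g⁻¹ (inv_mem hg)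
  have e : g * x * g⁻¹ = (c⁻¹ * g⁻¹)⁻¹ * (c⁻¹ * x * c) * (c⁻¹ * g⁻¹) := by group
  have hcx : c⁻¹ * x * c = x := by
    rw [mul_assoc, h.abelian j hj hj1 x (cen_mono hM j hx) c hc, inv_mul_cancel_left]
  rw [e, hcx]
  exact mul_mem (mul_mem (inv_mem hcg) hx.1) hcg

end Min

end Cfsg.Agent.H77.CentSq
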