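import Cfsg.Agent.H77.CentralizerSquare.Contradiction

/-!
The group `G` is solvable.
-/

set_option autoImplicit false
open scoped Pointwise commutatorElement

namespace Cfsg.Agent.H77.CentSq

universe u

theorem Hyp.exists_quotient_map {Γ : Type u} [Group Γ] [Finite Γ] {q : ℕ} {A G : Subgroup Γ}
    (h : Hyp q A G) {N : Subgroup Γ} (hN : N ≤ G) (hNA : A ≤ Subgroup.normalizer (N : Set Γ))
    (hGN : G ≤ Subgroup.normalizer (N : Set Γ)) (hNne : N ≠ ⊥) (hNs : Group.IsSolvable N)
    (ih : ∀ (Γ' : Type u) [Group Γ'] [Finite Γ'] (A' G' : Subgroup Γ'), Hyp q A' G' →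
      Nat.card G' < Nat.card G → Group.IsSolvable G') : Group.IsSolvable G := by
  set M := Subgroup.normalizer (N : Set Γ) with hM
  set N1 := N.subgroupOf M with hN1
  haveI : N1.Normal := Subgroup.normal_subgroupOf_of_le_normalizer le_rfl
  set G1 := G.subgroupOf M with hG1
  let f := QuotientGroup.mk' N1
  have hker : f.ker ≤ G1 := by
    rw [QuotientGroup.ker_mk']
    exact Subgroup.comap_mono hN
  have hkN : ∀ x : G1, x ∈ (f.subgroupMap G1).ker ↔ ((x : M) : Γ) ∈ N := fun x => by
    rw [MonoidHom.mem_ker, Subtype.ext_iff]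
    exact QuotientGroup.eq_one_iff (N := N1) (x : M)
  have hlt : Nat.card (G1.map f) < Nat.card G := by
    have h2 := (f.subgroupMap G1).ker.index_mul_card
    rw [Subgroup.index_ker, MonoidHom.range_eq_top.mpr (f.subgroupMap_surjective G1),
      Subgroup.card_top, Nat.card_congr (Subgroup.subgroupOfEquivOfLe hGN).toEquiv] at h2
    rw [← h2]
    refine lt_mul_of_one_lt_right Nat.card_pos ?_
    rw [Subgroup.one_lt_card_iff_ne_bot]
    obtain ⟨x, hx, hx1⟩ := (Subgroup.bot_or_exists_ne_one _).resolve_left hNne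
    intro e
    have hmem : (⟨⟨x, hGN (hN hx)⟩, hN hx⟩ : G1) ∈ (f.subgroupMap G1).ker := (hkN _).mpr hx
    rw [e, Subgroup.mem_bot] at hmem
    exact hx1 (congrArg (fun y : G1 => ((y : M) : Γ)) hmem)
  haveI := ih (M ⧸ N1) _ _ ((h.subgroupOf hNA hGN).map f hker) hlt
  haveI := hNs
  haveI : Group.IsSolvable G1 := by
    let ι : N →* G1 :=
      { toFun := fun x => ⟨⟨x, hGN (hN x.2)⟩, hN x.2⟩
        map_one' := rfl
        map_mul' := fun _ _ => rfl }
    refine Group.isSolvable_of_ker_le_range ι (f.subgroupMap G1) fun x hx => ?_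
    exact ⟨⟨_, (hkN x).mp hx⟩, rfl⟩
  exact Group.isSolvable_of_surjective (f := (Subgroup.subgroupOfEquivOfLe hGN).toMonoidHom)
    (Subgroup.subgroupOfEquivOfLe hGN).surjective

theorem isSolvable_aux (n : ℕ) : ∀ (Γ : Type u) [Group Γ] [Finite Γ] (q : ℕ) (A G : Subgroup Γ),
    Hyp q A G → Nat.card G = n → Group.IsSolvable G := by
  induction n using Nat.strong_induction_on with
  | _ n ih =>
  intro Γ _ _ q A G h hn
  subst hn
  by_contra hns
  have hsub : ∀ H : Subgroup Γ, H ≤ G → H ≠ G → A ≤ Subgroup.normalizer (H : Set Γ) →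
      Group.IsSolvable H := by
    intro H hH hne hHA
    refine ih _ ?_ Γ q A H (h.restrict hH hHA) rfl
    by_contra hc
    exact hne (Subgroup.eq_of_le_of_card_ge hH (not_lt.mp hc))
  have hsimple : ∀ N : Subgroup Γ, N ≤ G → A ≤ Subgroup.normalizer (N : Set Γ) →
      G ≤ Subgroup.normalizer (N : Set Γ) → N = ⊥ ∨ N = G := by
    intro N hN hNA hGN
    by_contra hne
    push Not at hne
    exact hns (h.exists_quotient_map hN hNA hGN hne.1 (hsub N hN hne.2 hNA)
      fun Γ' _ _ A' G' h' hlt => ih _ hlt Γ' q A' G' h' rfl)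
  haveI := h.comm
  -- the fixed points of `A` are central
  have hfix : G ⊓ Subgroup.centralizer (A : Set Γ) = ⊥ := by
    set T := G ⊓ Subgroup.centralizer (A : Set Γ) with hT
    have hTG : G ≤ Subgroup.centralizer (T : Set Γ) := h.le_of_cen_le le_rfl h.norm fun a ha ha1 x hx =>
      Subgroup.mem_centralizer_iff.mpr fun t ht =>
        h.abelian a ha ha1 t (mem_cen.mpr ⟨ht.1, Subgroup.mem_centralizer_iff.mp ht.2 a ha⟩) x hx
    have hTA : A ≤ Subgroup.normalizer (T : Set Γ) :=
      H20.le_normalizer_inf h.norm (H20.le_normalizer_centralizer Subgroup.le_normalizer)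
    refine (hsimple T inf_le_left hTA (hTG.trans (Subgroup.centralizer_le_normalizer _))).resolve_right
      fun e => hns ?_
    haveI : IsMulCommutative T := IsMulCommutative.of_comm fun x y =>
      Subtype.ext (Subgroup.mem_centralizer_iff.mp (hTG x.2.1) (y : Γ) y.2).symm
    rw [← e]
    exact H20.isSolvable_of_isMulCommutative T
  have hmin : Min q A G := ⟨⟨h, hfix⟩, hns, hsub, hsimple⟩
  obtain ⟨p, hp, hpd, hp2⟩ : ∃ p, p.Prime ∧ p ∣ Nat.card G ∧ p ≠ 2 := by
    by_contra hno
    push Not at hno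
    haveI : Fact (Nat.Prime 2) := ⟨Nat.prime_two⟩
    exact hns (H20.isSolvable_of_isPGroup (p := 2) (IsPGroup.of_card
      (Nat.eq_prime_pow_of_unique_prime_dvd Nat.card_pos.ne' fun {d} hd hdd => hno d hd hdd)))
  haveI := Fact.mk hp
  obtain ⟨P, hPG, hPA, hPp, hPc⟩ := H20.exists_invariant_sylow_subgroup h.norm h.cop
    (Or.inl (H20.isSolvable_of_isMulCommutative A)) p
  have hPne : P ≠ ⊥ := by
    intro e
    rw [e, Subgroup.card_bot] at hPc
    have := hp.factorization_pos_of_dvd Nat.card_pos.ne' hpd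
    have := (Nat.one_lt_pow this.ne' hp.one_lt)
    omega
  exact (⟨hmin, hPG, hPA, hPc, hPne⟩ : Local q A G p P).false_of_odd hp2

theorem Hyp.isSolvable {Γ : Type u} [Group Γ] [Finite Γ] {q : ℕ} {A G : Subgroup Γ} (h : Hyp q A G) :
    Group.IsSolvable G :=
  isSolvable_aux _ Γ q A G h rfl

end Cfsg.Agent.H77.CentSq
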