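import Cfsg.Agent.H77.CentralizerSquare.Trace

/-!
The derived subgroup centralises a minimal invariant normal abelian subgroup.
-/

set_option autoImplicit false
open scoped Pointwise commutatorElement

namespace Cfsg.Agent.H77.CentSq

variable {Γ : Type*} [Group Γ]

theorem le_normalizer_of_gens {A T : Subgroup Γ} {S : Set Γ} (hS : Subgroup.closure S = T)
    (h : ∀ a ∈ A, ∀ x ∈ S, a * x * a⁻¹ ∈ T) : A ≤ Subgroup.normalizer (T : Set Γ) := by
  subst hS
  exact Subgroup.le_normalizer_closure_iff.mpr h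

theorem le_normalizer_iInf {A : Subgroup Γ} {ι : Sort*} {X : ι → Subgroup Γ}
    (h : ∀ i, A ≤ Subgroup.normalizer (X i : Set Γ)) :
    A ≤ Subgroup.normalizer ((⨅ i, X i : Subgroup Γ) : Set Γ) := by
  rw [Subgroup.le_normalizer_iff]
  intro a ha x hx
  rw [Subgroup.mem_iInf] at hx ⊢
  exact fun i => H20.conj_mem_of_le_normalizer (h i) ha (hx i)

theorem commute_commutatorElement {x y : Γ} (h : Commute x y) : ⁅x, y⁆ = (1 : Γ) :=
  commutatorElement_eq_one_iff_commute.mpr h

namespace Hyp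

variable {q : ℕ} {A G : Subgroup Γ} (h : Hyp q A G)
include h

theorem cen_eq_of_mem_zpowers [Finite Γ] {a b : Γ} (ha : a ∈ A) (ha1 : a ≠ 1) (hb : b ∈ A) (hb1 : b ≠ 1)
    (hab : a ∈ Subgroup.zpowers b) (H : Subgroup Γ) : cen H a = cen H b := by
  have hba : Subgroup.zpowers a = Subgroup.zpowers b :=
    Subgroup.eq_of_le_of_card_ge (Subgroup.zpowers_le.mpr hab)
      (by rw [Nat.card_zpowers, Nat.card_zpowers, h.orderOf_eq ha ha1, h.orderOf_eq hb hb1])
  have key : ∀ u : Γ, Subgroup.centralizer ({u} : Set Γ) =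
      Subgroup.centralizer (Subgroup.zpowers u : Set Γ) := fun u => by
    rw [Subgroup.zpowers_eq_closure, Subgroup.centralizer_closure]
  unfold cen
  rw [key a, key b, hba]

theorem exists_notMem [Finite Γ] {a : Γ} (ha : a ∈ A) (ha1 : a ≠ 1) :
    ∃ b ∈ A, b ≠ 1 ∧ b ∉ Subgroup.zpowers a := by
  by_contra hne
  push Not at hne
  have hle : A ≤ Subgroup.zpowers a := fun b hb => by
    by_cases hb1 : b = 1
    · rw [hb1]; exact one_mem _
    · exact hne b hb hb1
  have := Subgroup.card_dvd_of_le hle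
  rw [h.card, Nat.card_zpowers, h.orderOf_eq ha ha1] at this
  have h2 : q ^ 2 ≤ q := Nat.le_of_dvd h.prime.pos this
  have := h.prime.two_le
  nlinarith

end Hyp

namespace Setting

variable {q : ℕ} {A G : Subgroup Γ} (h : Setting q A G)
include h

/-- If `L ≤ C(c)` normalises `E`, on which `n ∉ ⟨c⟩` acts trivially modulo `C`, then `[L, E] ≤ C`. -/
theorem commutator_mem_of_normalizes [Finite Γ] {n c : Γ} (hn : n ∈ A) (hn1 : n ≠ 1) (hc : c ∈ A)
    (hc1 : c ≠ 1) (hcn : c ∉ Subgroup.zpowers n) {E L C : Subgroup Γ}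
    (hEn : ∀ e ∈ E, n * e * n⁻¹ * e⁻¹ ∈ C) (hL : L ≤ cen G c)
    (hLA : A ≤ Subgroup.normalizer (L : Set Γ)) (hEL : L ≤ Subgroup.normalizer (E : Set Γ))
    (hCA : A ≤ Subgroup.normalizer (C : Set Γ)) (hCL : L ≤ Subgroup.normalizer (C : Set Γ))
    {x : Γ} (hx : x ∈ L) {e : Γ} (he : e ∈ E) : ⁅x, e⁆ ∈ C := by
  let f : L → L := fun l => ⟨n * (l : Γ) * n⁻¹ * (l : Γ)⁻¹,
    mul_mem (H20.conj_mem_of_le_normalizer hLA hn l.2) (inv_mem l.2)⟩
  have hf : Function.Injective f := by
    intro l m hlm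
    have h1 : n * (l : Γ) * n⁻¹ * (l : Γ)⁻¹ = n * (m : Γ) * n⁻¹ * (m : Γ)⁻¹ := congrArg Subtype.val hlm
    have hfix : n * ((m : Γ)⁻¹ * l) * n⁻¹ = (m : Γ)⁻¹ * l := by
      calc n * ((m : Γ)⁻¹ * l) * n⁻¹ = (n * (m : Γ) * n⁻¹)⁻¹ * (n * (l : Γ) * n⁻¹) := by group
        _ = (n * (m : Γ) * n⁻¹)⁻¹ * (n * (l : Γ) * n⁻¹ * (l : Γ)⁻¹ * l) := by group
        _ = (m : Γ)⁻¹ * l := by rw [h1]; group
    have hm : (m⁻¹ * l : L) = 1 := Subtype.ext (h.eq_one_of_two hn hc hc1
      (h.toHyp.notMem_zpowers_symm hc hc1 hn hn1 hcn)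
      (mem_cen.mpr ⟨(hL (m⁻¹ * l).2).1, mul_inv_eq_iff_eq_mul.mp hfix⟩) (hL (m⁻¹ * l).2))
    exact (inv_mul_eq_one.mp hm).symm
  obtain ⟨l, hl⟩ := Finite.surjective_of_injective hf ⟨x, hx⟩
  have hl' : n * (l : Γ) * n⁻¹ * (l : Γ)⁻¹ = x := congrArg Subtype.val hl
  subst hl'
  set u := (l : Γ)⁻¹ * e * l with hu
  have huE : u ∈ E := H20.inv_conj_mem_of_le_normalizer hEL l.2 he
  have h1 : n * u * n⁻¹ * u⁻¹ ∈ C := hEn u huE
  have h2 : n * e * n⁻¹ * e⁻¹ ∈ C := hEn e he
  have hcalc : ⁅n * (l : Γ) * n⁻¹ * (l : Γ)⁻¹, e⁆ =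
      (n * l * n⁻¹) * (u * n * u⁻¹ * n⁻¹) * (n * l * n⁻¹)⁻¹ * (n * e * n⁻¹ * e⁻¹) := by
    rw [hu, commutatorElement_def]
    group
  rw [hcalc]
  refine mul_mem ?_ h2
  have h3 : u * n * u⁻¹ * n⁻¹ ∈ C := by
    have := inv_mem h1
    simpa [mul_assoc] using this
  exact H20.conj_mem_of_le_normalizer hCL (H20.conj_mem_of_le_normalizer hLA hn l.2) h3

theorem commutator_le_centralizer_of_minimal [Finite Γ] (hsol : Group.IsSolvable G) {r : ℕ} [Fact r.Prime]
    {N : Subgroup Γ} (hNG : N ≤ G) (hNA : A ≤ Subgroup.normalizer (N : Set Γ))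
    (hGN : G ≤ Subgroup.normalizer (N : Set Γ)) (hNne : N ≠ ⊥) (hNc : IsMulCommutative N)
    (hNp : IsPGroup r N)
    (hNmin : ∀ M : Subgroup Γ, M ≤ N → A ≤ Subgroup.normalizer (M : Set Γ) →
      G ≤ Subgroup.normalizer (M : Set Γ) → M = ⊥ ∨ M = N) :
    ⁅G, G⁆ ≤ Subgroup.centralizer (N : Set Γ) := by
  set C := G ⊓ Subgroup.centralizer (N : Set Γ) with hC
  have hCA : A ≤ Subgroup.normalizer (C : Set Γ) :=
    H20.le_normalizer_inf h.norm (H20.le_normalizer_centralizer hNA)
  have hCG : G ≤ Subgroup.normalizer (C : Set Γ) :=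
    H20.le_normalizer_inf Subgroup.le_normalizer (H20.le_normalizer_centralizer hGN)
  by_cases hCtop : C = G
  · refine Subgroup.commutator_le_self G |>.trans ?_
    rw [← hCtop]
    exact inf_le_right
  -- a minimal invariant normal subgroup above `C`
  obtain ⟨E, ⟨hCE, hEG, hEA, hGE⟩, hEmin⟩ :=
    (Set.toFinite {E : Subgroup Γ | C < E ∧ E ≤ G ∧ A ≤ Subgroup.normalizer (E : Set Γ) ∧
      G ≤ Subgroup.normalizer (E : Set Γ)}).exists_minimal
      ⟨G, lt_of_le_of_ne inf_le_left hCtop, le_rfl, h.norm, Subgroup.le_normalizer⟩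
  have hEmin' : ∀ M : Subgroup Γ, C ≤ M → M ≤ E → A ≤ Subgroup.normalizer (M : Set Γ) →
      G ≤ Subgroup.normalizer (M : Set Γ) → M = C ∨ M = E := by
    intro M hCM hME hMA hMG
    rcases eq_or_lt_of_le hCM with e | e
    · exact Or.inl e.symm
    · exact Or.inr (le_antisymm hME (hEmin ⟨e, hME.trans hEG, hMA, hMG⟩ hME))
  -- `E / C` is abelian
  have hEE : ⁅E, E⁆ ≤ C := by
    rcases hEmin' (C ⊔ ⁅E, E⁆) le_sup_left (sup_le hCE.le (Subgroup.commutator_le_self E))
      (le_normalizer_sup' hCA (le_normalizer_commutator' hEA hEA))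
      (le_normalizer_sup' hCG (le_normalizer_commutator' hGE hGE)) with e | e
    · exact le_sup_right.trans e.le
    · exfalso
      have key : ∀ k, ∀ X : Subgroup Γ, X = Nat.iterate (fun Y => ⁅Y, Y⁆) k E → E ≤ C ⊔ X := by
        intro k
        induction k with
        | zero => rintro X rfl; exact le_sup_right
        | succ k ih =>
          rintro X rfl
          rw [Function.iterate_succ_apply']
          set Y := Nat.iterate (fun Y => ⁅Y, Y⁆) k E
          have hY : E ≤ C ⊔ Y := ih Y rfl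
          have hYE : Y ≤ E := by
            clear hY ih
            show Nat.iterate (fun Y => ⁅Y, Y⁆) k E ≤ E
            induction k with
            | zero => exact le_rfl
            | succ k ih2 =>
              rw [Function.iterate_succ_apply']
              exact (Subgroup.commutator_le_self _).trans ih2
          have hYC : Y ≤ Subgroup.normalizer (C : Set Γ) := (hYE.trans hEG).trans hCG
          calc E ≤ C ⊔ ⁅E, E⁆ := e.ge
            _ ≤ C ⊔ ⁅Y, Y⁆ := by
              refine sup_le le_sup_left ?_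
              rw [Subgroup.commutator_le]
              intro x hx y hy
              have hx' : x ∈ (C : Set Γ) * (Y : Set Γ) := by
                rw [← Subgroup.coe_mul_of_right_le_normalizer_left C Y hYC]; exact hY hx
              have hy' : y ∈ (C : Set Γ) * (Y : Set Γ) := by
                rw [← Subgroup.coe_mul_of_right_le_normalizer_left C Y hYC]; exact hY hy
              obtain ⟨c1, hc1, x1, hx1, rfl⟩ := hx'
              obtain ⟨c2, hc2, y1, hy1, rfl⟩ := hy'
              have hn : ∀ g ∈ Y, ∀ z ∈ C, g * z * g⁻¹ ∈ C := fun g hg z hz =>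
                H20.conj_mem_of_le_normalizer hYC hg hz
              have e1 : ⁅c1 * x1, c2 * y1⁆ =
                  c1 * (x1 * c2 * x1⁻¹) * ((x1 * y1 * x1⁻¹) * c1⁻¹ * (x1 * y1 * x1⁻¹)⁻¹) *
                    (⁅x1, y1⁆ * c2⁻¹ * ⁅x1, y1⁆⁻¹) * ⁅x1, y1⁆ := by
                simp only [commutatorElement_def]
                group
              rw [e1]
              refine mul_mem (Subgroup.mem_sup_left ?_) (Subgroup.mem_sup_right
                (Subgroup.commutator_mem_commutator hx1 hy1))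
              refine mul_mem (mul_mem (mul_mem hc1 (hn _ hx1 _ hc2)) ?_) ?_
              · exact hn _ (mul_mem (mul_mem hx1 hy1) (inv_mem hx1)) _ (inv_mem hc1)
              · exact hn _ (mul_mem (mul_mem (mul_mem hx1 hy1) (inv_mem hx1)) (inv_mem hy1)) _
                  (inv_mem hc2)
      haveI : Group.IsSolvable E := H20.isSolvable_of_le hEG hsol
      obtain ⟨k, hk⟩ := (Group.isSolvable_def E).mp inferInstance
      have hkX : Nat.iterate (fun Y => ⁅Y, Y⁆) k E = (derivedSeries E k).map E.subtype := by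
        clear key hk
        induction k with
        | zero => rw [derivedSeries_zero, ← MonoidHom.range_eq_map, Subgroup.range_subtype]; rfl
        | succ k ih => rw [Function.iterate_succ_apply', ih, derivedSeries_succ, Subgroup.map_commutator]
      have h0 : E ≤ C ⊔ Nat.iterate (fun Y => ⁅Y, Y⁆) k E := key k _ rfl
      rw [hkX, hk, Subgroup.map_bot, sup_bot_eq] at h0
      exact hCE.not_ge h0
  -- a prime of `E / C`
  obtain ⟨t, ht, T, hTE, hTA, hTp, hTc, hTC⟩ : ∃ t : ℕ, t.Prime ∧ ∃ T : Subgroup Γ, T ≤ E ∧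
      A ≤ Subgroup.normalizer (T : Set Γ) ∧ IsPGroup t T ∧
      Nat.card T = t ^ (Nat.card E).factorization t ∧ ¬ T ≤ C := by
    by_contra hne
    push Not at hne
    refine hCE.not_ge ?_
    suffices hsuf : Nat.card E ∣ Nat.card (E ⊓ C : Subgroup Γ) from
      inf_eq_left.mp (Subgroup.eq_of_le_of_card_ge inf_le_left (Nat.le_of_dvd Nat.card_pos hsuf))
    rw [← Nat.factorization_le_iff_dvd Nat.card_pos.ne' Nat.card_pos.ne']
    intro t
    rcases em t.Prime with ht | ht
    · haveI := Fact.mk ht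
      haveI := h.comm
      obtain ⟨T, hTE, hTA, hTp, hTc⟩ := H20.exists_invariant_sylow_subgroup hEA
        (H20.coprime_card_mono_right h.cop hEG) (Or.inl (H20.isSolvable_of_isMulCommutative A)) t
      refine (ht.pow_dvd_iff_le_factorization Nat.card_pos.ne').mp ?_
      rw [← hTc]
      exact Subgroup.card_dvd_of_le (le_inf hTE (hne t ht T hTE hTA hTp hTc))
    · rw [Nat.factorization_eq_zero_of_not_prime _ ht]
      exact Nat.zero_le _
  haveI := Fact.mk ht
  -- `E = C T`
  have hEle : E ≤ C ⊔ T := by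
    have hVE : C ⊔ T ≤ E := sup_le hCE.le hTE
    have hEV : E ≤ Subgroup.normalizer ((C ⊔ T : Subgroup Γ) : Set Γ) := by
      rw [Subgroup.le_normalizer_iff_commutator_le_left, Subgroup.commutator_comm]
      exact (Subgroup.commutator_mono le_rfl hVE).trans (hEE.trans le_sup_left)
    haveI : ((C ⊔ T).subgroupOf E).Normal := Subgroup.normal_subgroupOf_of_le_normalizer hEV
    have hnd : ¬ t ∣ ((C ⊔ T).subgroupOf E).index := by
      intro hd
      have h1 : ((C ⊔ T).subgroupOf E).index ∣ (T.subgroupOf E).index :=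
        Subgroup.index_dvd_of_le (Subgroup.comap_mono le_sup_right)
      have h2 := Subgroup.card_mul_index (T.subgroupOf E)
      rw [Nat.card_congr (Subgroup.subgroupOfEquivOfLe hTE).toEquiv, hTc] at h2
      have h4 : t ^ ((Nat.card E).factorization t + 1) ∣ Nat.card E := by
        have h5 := mul_dvd_mul_left (t ^ (Nat.card E).factorization t) (hd.trans h1)
        rwa [h2, ← pow_succ] at h5
      exact Nat.pow_succ_factorization_not_dvd Nat.card_pos.ne' ht h4
    have hmem : ∀ x ∈ E, (∃ k : ℕ, x ^ t ^ k = 1) → x ∈ C ⊔ T := by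
      intro x hx hk
      obtain ⟨k, hk⟩ := hk
      have h1 : orderOf (QuotientGroup.mk (⟨x, hx⟩ : E) : E ⧸ (C ⊔ T).subgroupOf E) ∣
          ((C ⊔ T).subgroupOf E).index := by
        rw [Subgroup.index_eq_card]
        exact orderOf_dvd_natCard _
      have h2 : orderOf (QuotientGroup.mk (⟨x, hx⟩ : E) : E ⧸ (C ⊔ T).subgroupOf E) ∣ t ^ k := by
        refine orderOf_dvd_iff_pow_eq_one.mpr ?_
        rw [← QuotientGroup.mk_pow, show (⟨x, hx⟩ : E) ^ t ^ k = 1 from Subtype.ext (by simpa using hk),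
          QuotientGroup.mk_one]
      have h3 := orderOf_eq_one_iff.mp (Nat.eq_one_of_dvd_coprimes
        ((Nat.Coprime.pow_left k ((ht.coprime_iff_not_dvd).mpr hnd))) h2 h1)
      exact Subgroup.mem_subgroupOf.mp ((QuotientGroup.eq_one_iff (⟨x, hx⟩ : E)).mp h3)
    have hnorm : ∀ B : Subgroup Γ, B ≤ Subgroup.normalizer (C : Set Γ) → B ≤ Subgroup.normalizer (E : Set Γ) →
        B ≤ Subgroup.normalizer ((C ⊔ T : Subgroup Γ) : Set Γ) := by
      intro B hBC hBE
      refine le_normalizer_of_gens (S := (C : Set Γ) ∪ T)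
        (by rw [Subgroup.closure_union, Subgroup.closure_eq, Subgroup.closure_eq]) ?_
      rintro b hb x (hx | hx)
      · exact Subgroup.mem_sup_left (H20.conj_mem_of_le_normalizer hBC hb hx)
      · refine hmem _ (H20.conj_mem_of_le_normalizer hBE hb (hTE hx)) ?_
        obtain ⟨k, hk⟩ := hTp ⟨x, hx⟩
        exact ⟨k, by rw [conj_pow, show x ^ t ^ k = 1 from congrArg Subtype.val hk]; group⟩
    rcases hEmin' (C ⊔ T) le_sup_left hVE (hnorm A hCA hEA) (hnorm G hCG hGE) with e | e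
    · exact absurd (le_sup_right.trans e.le) hTC
    · exact e.ge
  have hTG : T ≤ G := hTE.trans hEG
  have hTN : T ≤ Subgroup.normalizer (N : Set Γ) := hTG.trans hGN
  -- `T` has no fixed points on `N`
  have hfixN : N ⊓ Subgroup.centralizer (T : Set Γ) = ⊥ := by
    have hEN : N ⊓ Subgroup.centralizer (T : Set Γ) = N ⊓ Subgroup.centralizer (E : Set Γ) := by
      refine le_antisymm (le_inf inf_le_left ?_) (inf_le_inf_left _ (Subgroup.centralizer_le hTE))
      intro x hx
      have hCT : C ⊔ T ≤ Subgroup.centralizer ({x} : Set Γ) := by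
        refine sup_le (fun y hy => ?_) (fun y hy => ?_) <;> rw [Subgroup.mem_centralizer_singleton_iff]
        · exact (Subgroup.mem_centralizer_iff.mp hy.2 x hx.1).symm
        · exact Subgroup.mem_centralizer_iff.mp hx.2 y hy
      rw [Subgroup.mem_centralizer_iff]
      exact fun y hy => Subgroup.mem_centralizer_singleton_iff.mp (hCT (hEle hy))
    rw [hEN]
    rcases hNmin _ inf_le_left (H20.le_normalizer_inf hNA (H20.le_normalizer_centralizer hEA))
      (H20.le_normalizer_inf hGN (H20.le_normalizer_centralizer hGE)) with e | e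
    · exact e
    · exfalso
      refine hTC (le_inf hTG fun x hx => ?_)
      rw [Subgroup.mem_centralizer_iff]
      intro y hy
      exact (Subgroup.mem_centralizer_iff.mp ((inf_eq_left.mp e : N ≤ _) hy) x (hTE hx)).symm
  -- hence `t ≠ r`
  have hcopNT : (Nat.card T).Coprime (Nat.card N) := by
    refine IsPGroup.coprime_card_of_ne t r (fun e => ?_) _ _ hTp hNp
    subst e
    let f : T →* MulAut N := N.normalizerMonoidHom.comp (Subgroup.inclusion hTN)
    letI : MulAction T N := MulAction.compHom N f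
    haveI : Fintype N := Fintype.ofFinite N
    haveI : Nontrivial N := N.nontrivial_iff_ne_bot.mpr hNne
    obtain ⟨k, hk⟩ := IsPGroup.iff_card.mp hNp
    have hdvd : t ∣ Nat.card N := by
      rw [hk]
      refine dvd_pow_self t fun h0 => ?_
      rw [h0, pow_zero] at hk
      exact (Finite.one_lt_card (α := N)).ne' hk
    have h1 : (1 : N) ∈ MulAction.fixedPoints T N := fun g => map_one (f g)
    obtain ⟨y, hy, hy1⟩ := hTp.exists_fixed_point_of_prime_dvd_card_of_fixed_point N hdvd h1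
    refine hy1 ?_
    have : (y : Γ) ∈ N ⊓ Subgroup.centralizer (T : Set Γ) := by
      refine ⟨y.2, Subgroup.mem_centralizer_iff.mpr fun x hx => ?_⟩
      exact mul_inv_eq_iff_eq_mul.mp (congrArg Subtype.val (hy ⟨x, hx⟩))
    rw [hfixN, Subgroup.mem_bot] at this
    exact Subtype.ext this.symm
  haveI := hNc
  have hNT : ⁅N, T⁆ = N := by
    have h1 := H20.commutator_sup_centralizer hTN hcopNT (Or.inr (H20.isSolvable_of_isMulCommutative N))
    rwa [hfixN, sup_bot_eq] at h1
  -- the blocks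
  let T' : Γ → Subgroup Γ := fun b => cen T b
  let Nb : Γ → Subgroup Γ := fun b => ⁅N, T' b⁆
  have hT'T : ∀ b, T' b ≤ T := fun b => inf_le_left
  have hT'A : ∀ b ∈ A, A ≤ Subgroup.normalizer (T' b : Set Γ) := fun b hb => h.toHyp.le_normalizer_cen hb hTA
  have hNbN : ∀ b, Nb b ≤ N := fun b => H20.commutator_le_of_le_normalizer ((hT'T b).trans hTN)
  have hNbA : ∀ b ∈ A, A ≤ Subgroup.normalizer (Nb b : Set Γ) := fun b hb =>
    le_normalizer_commutator' hNA (hT'A b hb)
  have hcopN : ∀ b, (Nat.card (T' b)).Coprime (Nat.card N) := fun b =>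
    H20.coprime_card_mono_left hcopNT (hT'T b)
  -- conjugation of `⁅N, T' b⁆` by an element commuting with `T' b` modulo `C`
  have hblock : ∀ b, ∀ g ∈ G, (∀ s ∈ T' b, ⁅g, s⁆ ∈ C) → ∀ y ∈ Nb b, g * y * g⁻¹ ∈ Nb b := by
    intro b g hg hcomm y hy
    have key : Nb b ≤ (Nb b).comap (MulAut.conj g).toMonoidHom := by
      refine (Subgroup.commutator_le).mpr fun x hx s hs => ?_
      rw [Subgroup.mem_comap]
      show g * ⁅x, s⁆ * g⁻¹ ∈ Nb b
      have hx' : g * x * g⁻¹ ∈ N := H20.conj_mem_of_le_normalizer hGN hg hx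
      have e : g * ⁅x, s⁆ * g⁻¹ = ⁅g * x * g⁻¹, s⁆ := by
        have hc : ⁅g, s⁆ ∈ Subgroup.centralizer (N : Set Γ) := (hcomm s hs).2
        have hsx : s * (g * x * g⁻¹)⁻¹ * s⁻¹ ∈ N :=
          H20.conj_mem_of_le_normalizer hTN (hT'T b hs) (inv_mem hx')
        have hc' := Subgroup.mem_centralizer_iff.mp hc _ hsx
        calc g * ⁅x, s⁆ * g⁻¹ = (g * x * g⁻¹) * (⁅g, s⁆ * (s * (g * x * g⁻¹)⁻¹ * s⁻¹) * ⁅g, s⁆⁻¹) := by
              simp only [commutatorElement_def]; group
          _ = (g * x * g⁻¹) * (s * (g * x * g⁻¹)⁻¹ * s⁻¹) := by rw [← hc', mul_inv_cancel_right]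
          _ = ⁅g * x * g⁻¹, s⁆ := by simp only [commutatorElement_def]; group
      rw [e]
      exact Subgroup.commutator_mem_commutator hx' hs
    exact key hy
  have hblockN : ∀ b, ∀ L : Subgroup Γ, L ≤ G → (∀ g ∈ L, ∀ s ∈ T' b, ⁅g, s⁆ ∈ C) →
      L ≤ Subgroup.normalizer (Nb b : Set Γ) := fun b L hL hc =>
    Subgroup.le_normalizer_iff.mpr fun g hg y hy => hblock b g (hL hg) (hc g hg) y hy
  have hTcomm : ∀ b, ∀ g ∈ T, ∀ s ∈ T' b, ⁅g, s⁆ ∈ C := fun b g hg s hs =>
    hEE (Subgroup.commutator_mem_commutator (hTE hg) (hTE (hT'T b hs)))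
  -- components act on disjoint blocks
  have hA1 : ∀ b ∈ A, b ≠ 1 → ∀ c ∈ A, c ≠ 1 → c ∉ Subgroup.zpowers b →
      T' c ≤ Subgroup.centralizer (Nb b : Set Γ) := by
    intro b hb hb1 c hc hc1 hcb
    refine h.le_centralizer_of_cen hc hc1 hb hb1 (h.toHyp.notMem_zpowers_symm hc hc1 hb hb1 hcb)
      (cen_mono hTG c) (hT'A c hc) ((hNbN b).trans hNG) (hNbA b hb)
      ((hT'T c).trans (hblockN b T hTG (hTcomm b))) (H20.isSolvable_of_le ((hNbN b).trans hNG) hsol)
      (H20.coprime_card_mono_right (hcopN c) (hNbN b)) ?_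
    intro x hx
    have h1 : x ∈ (N ⊓ Subgroup.centralizer (T' b : Set Γ)) ⊓ ⁅N, T' b⁆ := by
      refine Subgroup.mem_inf.mpr ⟨Subgroup.mem_inf.mpr ⟨hNbN b hx.1,
        Subgroup.mem_centralizer_iff.mpr fun s hs => ?_⟩, hx.1⟩
      exact h.abelian b hb hb1 s (cen_mono hTG b hs) x (cen_mono ((hNbN b).trans hNG) b hx)
    rw [H20.centralizer_inf_commutator_eq_bot ((hT'T b).trans hTN) (hcopN b), Subgroup.mem_bot] at h1
    rw [h1]
    exact one_mem _
  have hTN0 : ∀ e ∈ E, (∀ b ∈ A, b ≠ 1 → e ∈ Subgroup.centralizer (Nb b : Set Γ)) → e ∈ C := by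
    intro e he hall
    refine ⟨hEG he, ?_⟩
    have hN' : N ≤ Subgroup.centralizer ({e} : Set Γ) := by
      let D : Subgroup Γ := (N ⊓ Subgroup.centralizer ({e} : Set Γ))
      suffices hND : N ≤ D from hND.trans inf_le_right
      have hgen : ∀ x ∈ N, ∀ s ∈ T, ⁅x, s⁆ ∈ D := by
        intro x hx
        have hDN : D ≤ N := inf_le_left
        have hDn : T ≤ Subgroup.normalizer (D : Set Γ) := by
          rw [Subgroup.le_normalizer_iff]
          intro s hs y hy
          refine ⟨H20.conj_mem_of_le_normalizer hTN hs hy.1, Subgroup.mem_centralizer_singleton_iff.mpr ?_⟩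
          have hye := Subgroup.mem_centralizer_singleton_iff.mp hy.2
          have hz : ⁅s⁻¹, e⁆ ∈ C := hEE (Subgroup.commutator_mem_commutator (inv_mem (hTE hs)) he)
          have hyc := Subgroup.mem_centralizer_iff.mp hz.2 y hy.1
          calc s * y * s⁻¹ * e = s * (y * ⁅s⁻¹, e⁆) * (e * s⁻¹) := by
                simp only [commutatorElement_def]; group
            _ = s * (⁅s⁻¹, e⁆ * y) * (e * s⁻¹) := by rw [hyc]
            _ = s * ⁅s⁻¹, e⁆ * (y * e) * s⁻¹ := by group
            _ = s * ⁅s⁻¹, e⁆ * (e * y) * s⁻¹ := by rw [hye]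
            _ = e * (s * y * s⁻¹) := by simp only [commutatorElement_def]; group
        let S : Subgroup Γ :=
          { carrier := {s | s ∈ T ∧ ∀ y ∈ N, ⁅y, s⁆ ∈ D}
            one_mem' := ⟨one_mem _, fun y _ => by rw [commutatorElement_one_right]; exact one_mem _⟩
            mul_mem' := by
              rintro s u ⟨hs, hs'⟩ ⟨hu, hu'⟩
              refine ⟨mul_mem hs hu, fun y hy => ?_⟩
              have e1 : ⁅y, s * u⁆ = ⁅y, s⁆ * (s * ⁅y, u⁆ * s⁻¹) := by
                simp only [commutatorElement_def]; group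
              rw [e1]
              exact mul_mem (hs' y hy) (H20.conj_mem_of_le_normalizer hDn hs (hu' y hy))
            inv_mem' := by
              rintro s ⟨hs, hs'⟩
              refine ⟨inv_mem hs, fun y hy => ?_⟩
              have e1 : ⁅y, s⁻¹⁆ = s⁻¹ * ⁅y, s⁆⁻¹ * s⁻¹⁻¹ := by
                simp only [commutatorElement_def]; group
              rw [e1]
              exact H20.conj_mem_of_le_normalizer hDn (inv_mem hs) (inv_mem (hs' y hy)) }
        have hTS : T ≤ S := by
          refine (h.restrict hTG hTA).toHyp.le_of_cen_le le_rfl hTA fun b hb hb1 s hs => ⟨hs.1, fun y hy => ?_⟩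
          have hmem : ⁅y, s⁆ ∈ Nb b := Subgroup.commutator_mem_commutator hy hs
          refine ⟨hNbN b hmem, Subgroup.mem_centralizer_singleton_iff.mpr ?_⟩
          exact (Subgroup.mem_centralizer_iff.mp (hall b hb hb1) _ hmem)
        exact fun s hs => (hTS hs).2 x hx
      rw [← hNT]
      exact Subgroup.commutator_le.mpr hgen
    exact Subgroup.mem_centralizer_iff.mpr fun x hx => Subgroup.mem_centralizer_singleton_iff.mp (hN' hx)
  have hTE' : ∀ d, ∀ e ∈ cen E d, d ∈ A → ∃ c0 ∈ C, ∃ s ∈ T' d, e = c0 * s := by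
    intro d e he hd
    have he' : e ∈ (C : Set Γ) * (T : Set Γ) := by
      rw [← Subgroup.coe_mul_of_right_le_normalizer_left C T (hTG.trans hCG)]
      exact hEle he.1
    obtain ⟨c0, hc0, s0, hs0, rfl⟩ := he'
    obtain ⟨c1, hc1, s1, hs1, e1⟩ :=
      h.toHyp.exists_fixed_factors hd inf_le_left hTG hCA hTA hc0 hs0 (cen_mono hEG d he)
    exact ⟨c1, hc1.1, s1, hs1, e1⟩
  -- `E / C` is central in `G / C`
  have hcentral : ∀ c ∈ A, c ≠ 1 → ∀ b ∈ A, b ≠ 1 → ∀ g ∈ cen G c, ∀ s ∈ T' b, ⁅g, s⁆ ∈ C := by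
    intro c hc hc1
    set L := cen G c with hL
    have hLA : A ≤ Subgroup.normalizer (L : Set Γ) := h.toHyp.le_normalizer_cen hc h.norm
    have hLG : L ≤ G := inf_le_left
    have hsame : ∀ g ∈ L, ∀ s ∈ T' c, ⁅g, s⁆ ∈ C := fun g hg s hs => by
      rw [commute_commutatorElement (h.abelian c hc hc1 g hg s (cen_mono hTG c hs))]
      exact one_mem _
    -- `L` normalizes the centralizer in `E` of every block
    have hK : ∀ b ∈ A, b ≠ 1 →
        L ≤ Subgroup.normalizer ((E ⊓ Subgroup.centralizer (Nb b : Set Γ) : Subgroup Γ) : Set Γ) := by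
      intro b hb hb1
      by_cases hbc : b ∈ Subgroup.zpowers c
      · have hTbc : T' b = T' c := h.toHyp.cen_eq_of_mem_zpowers hb hb1 hc hc1 hbc T
        refine H20.le_normalizer_inf (hLG.trans hGE) (H20.le_normalizer_centralizer ?_)
        exact hblockN b L hLG (by rw [hTbc]; exact hsame)
      have hcb : c ∉ Subgroup.zpowers b := h.toHyp.notMem_zpowers_symm hb hb1 hc hc1 hbc
      suffices heq : E ⊓ Subgroup.centralizer (Nb b : Set Γ) =
          E ⊓ Subgroup.centralizer ((cen (Nb b) c : Subgroup Γ) : Set Γ) by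
        rw [heq]
        refine H20.le_normalizer_inf (hLG.trans hGE) (H20.le_normalizer_centralizer ?_)
        rw [Subgroup.le_normalizer_iff]
        intro l hl x hx
        rw [h.abelian c hc hc1 l hl x (cen_mono ((hNbN b).trans hNG) c hx), mul_inv_cancel_right]
        exact hx
      refine le_antisymm (inf_le_inf_left _ (Subgroup.centralizer_le inf_le_left)) ?_
      set K := E ⊓ Subgroup.centralizer ((cen (Nb b) c : Subgroup Γ) : Set Γ) with hKdef
      have hKA : A ≤ Subgroup.normalizer (K : Set Γ) :=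
        H20.le_normalizer_inf hEA (H20.le_normalizer_centralizer (h.toHyp.le_normalizer_cen hc (hNbA b hb)))
      refine h.toHyp.le_of_cen_le (inf_le_left.trans hEG) hKA fun d hd hd1 k hk => ?_
      obtain ⟨c0, hc0, s, hs, rfl⟩ := hTE' d k ⟨hk.1.1, hk.2⟩ hd
      refine ⟨hk.1.1, mul_mem (Subgroup.centralizer_le (hNbN b) hc0.2) ?_⟩
      by_cases hdb : d ∈ Subgroup.zpowers b
      · have hsb : s ∈ T' b := by
          show s ∈ cen T b
          rw [← h.toHyp.cen_eq_of_mem_zpowers hd hd1 hb hb1 hdb T]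
          exact hs
        set L0 := T' b ⊓ Subgroup.centralizer ((cen (Nb b) c : Subgroup Γ) : Set Γ) with hL0
        have hsK : s ∈ L0 := by
          refine ⟨hsb, ?_⟩
          have := mul_mem (inv_mem (Subgroup.centralizer_le (inf_le_left.trans (hNbN b)) hc0.2)) hk.1.2
          simpa using this
        refine h.le_centralizer_of_cen hb hb1 hc hc1 hcb (inf_le_left.trans (cen_mono hTG b))
          (H20.le_normalizer_inf (hT'A b hb) (H20.le_normalizer_centralizer
            (h.toHyp.le_normalizer_cen hc (hNbA b hb)))) ((hNbN b).trans hNG) (hNbA b hb)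
          ((inf_le_left.trans (hT'T b)).trans (hblockN b T hTG (hTcomm b)))
          (H20.isSolvable_of_le ((hNbN b).trans hNG) hsol)
          (H20.coprime_card_mono_left (H20.coprime_card_mono_right (hcopN b) (hNbN b)) inf_le_left)
          ?_ hsK
        intro x hx
        exact Subgroup.mem_centralizer_iff.mpr fun l hl => (Subgroup.mem_centralizer_iff.mp hl.2 x hx).symm
      · exact hA1 b hb hb1 d hd hd1 hdb hs
    intro b hb hb1 g hg s hs
    by_cases hbc : b ∈ Subgroup.zpowers c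
    · have hTbc : T' b = T' c := h.toHyp.cen_eq_of_mem_zpowers hb hb1 hc hc1 hbc T
      exact hsame g hg s (hTbc ▸ hs)
    -- the subgroup of `E` acting on the block of `b` only
    let Eb : Subgroup Γ := E ⊓ ⨅ d : {d : Γ // d ∈ A ∧ d ≠ 1 ∧ d ∉ Subgroup.zpowers b},
      (E ⊓ Subgroup.centralizer (Nb d : Set Γ))
    have hEbA : A ≤ Subgroup.normalizer (Eb : Set Γ) :=
      H20.le_normalizer_inf hEA (le_normalizer_iInf fun d =>
        H20.le_normalizer_inf hEA (H20.le_normalizer_centralizer (hNbA _ d.2.1)))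
    have hEbL : L ≤ Subgroup.normalizer (Eb : Set Γ) :=
      H20.le_normalizer_inf (hLG.trans hGE) (le_normalizer_iInf fun d => hK _ d.2.1 d.2.2.1)
    have hCEb : C ≤ Eb := le_inf hCE.le (le_iInf fun d =>
      le_inf hCE.le (inf_le_right.trans (Subgroup.centralizer_le (hNbN _))))
    have hTbEb : T' b ≤ Eb := le_inf ((hT'T b).trans hTE) (le_iInf fun d => le_inf ((hT'T b).trans hTE)
      (hA1 d.1 d.2.1 d.2.2.1 b hb hb1
        (h.toHyp.notMem_zpowers_symm d.2.1 d.2.2.1 hb hb1 d.2.2.2)))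
    have hEble : Eb ≤ C ⊔ T' b := by
      refine h.toHyp.le_of_cen_le (inf_le_left.trans hEG) hEbA fun d hd hd1 k hk => ?_
      obtain ⟨c0, hc0, u, hu, rfl⟩ := hTE' d k ⟨hk.1.1, hk.2⟩ hd
      by_cases hdb : d ∈ Subgroup.zpowers b
      · refine mul_mem (Subgroup.mem_sup_left hc0) (Subgroup.mem_sup_right ?_)
        show u ∈ cen T b
        rw [← h.toHyp.cen_eq_of_mem_zpowers hd hd1 hb hb1 hdb T]
        exact hu
      · refine mul_mem (Subgroup.mem_sup_left hc0) (Subgroup.mem_sup_left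
          (hTN0 u (hTE (hT'T d hu)) fun d' hd' hd'1 => ?_))
        by_cases hd'b : d' ∈ Subgroup.zpowers b
        · refine hA1 d' hd' hd'1 d hd hd1 (fun hdd' => hdb ?_) hu
          exact (Subgroup.zpowers_le.mpr hd'b) hdd'
        · have huEb : u ∈ Eb := by
            have := mul_mem (inv_mem (hCEb hc0)) hk.1
            simpa using this
          have h1 := (Subgroup.mem_iInf.mp huEb.2) ⟨d', hd', hd'1, hd'b⟩
          exact h1.2
    refine h.commutator_mem_of_normalizes hb hb1 hc hc1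
      (h.toHyp.notMem_zpowers_symm hb hb1 hc hc1 hbc) (E := Eb) ?_ le_rfl hLA hEbL hCA (hLG.trans hCG) hg
      (hTbEb hs)
    intro e he
    have he' : e ∈ (C : Set Γ) * (T' b : Set Γ) := by
      rw [← Subgroup.coe_mul_of_right_le_normalizer_left C (T' b) (((hT'T b).trans hTG).trans hCG)]
      exact hEble he
    obtain ⟨c0, hc0, u, hu, rfl⟩ := he'
    have hbu : b * u = u * b := (mem_cen.mp hu).2
    have e1 : b * (c0 * u) * b⁻¹ * (c0 * u)⁻¹ = (b * c0 * b⁻¹) * c0⁻¹ := by
      calc b * (c0 * u) * b⁻¹ * (c0 * u)⁻¹ = b * c0 * (u * b⁻¹ * u⁻¹) * c0⁻¹ := by group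
        _ = b * c0 * b⁻¹ * c0⁻¹ := by
          congr 2
          rw [mul_inv_eq_iff_eq_mul, eq_inv_mul_iff_mul_eq, ← mul_assoc, hbu, mul_inv_cancel_right]
    rw [e1]
    exact mul_mem (H20.conj_mem_of_le_normalizer hCA hb hc0) (inv_mem hc0)
  have hcentralG : ∀ b ∈ A, b ≠ 1 → ∀ g ∈ G, ∀ s ∈ T' b, ⁅g, s⁆ ∈ C := by
    intro b hb hb1
    let S : Subgroup Γ :=
      { carrier := {g | g ∈ G ∧ ∀ s ∈ T' b, ⁅g, s⁆ ∈ C}
        one_mem' := ⟨one_mem _, fun s _ => by rw [commutatorElement_one_left]; exact one_mem _⟩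
        mul_mem' := by
          rintro x y ⟨hx, hx'⟩ ⟨hy, hy'⟩
          refine ⟨mul_mem hx hy, fun s hs => ?_⟩
          have e1 : ⁅x * y, s⁆ = x * ⁅y, s⁆ * x⁻¹ * ⁅x, s⁆ := by simp only [commutatorElement_def]; group
          rw [e1]
          exact mul_mem (H20.conj_mem_of_le_normalizer hCG hx (hy' s hs)) (hx' s hs)
        inv_mem' := by
          rintro x ⟨hx, hx'⟩
          refine ⟨inv_mem hx, fun s hs => ?_⟩
          have e1 : ⁅x⁻¹, s⁆ = x⁻¹ * ⁅x, s⁆⁻¹ * x⁻¹⁻¹ := by simp only [commutatorElement_def]; group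
          rw [e1]
          exact H20.conj_mem_of_le_normalizer hCG (inv_mem hx) (inv_mem (hx' s hs)) }
    have hGS : G ≤ S := h.toHyp.le_of_cen_le le_rfl h.norm fun c hc hc1 g hg =>
      ⟨hg.1, fun s hs => hcentral c hc hc1 b hb hb1 g hg s hs⟩
    exact fun g hg => (hGS hg).2
  -- choose a component of `T` outside `C`
  obtain ⟨j, hj, hj1, hTj⟩ : ∃ j ∈ A, j ≠ 1 ∧ ¬ T' j ≤ C := by
    by_contra hne
    push Not at hne
    exact hTC ((h.restrict hTG hTA).toHyp.le_of_cen_le le_rfl hTA fun b hb hb1 => hne b hb hb1)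
  have hNj : Nb j = N := by
    rcases hNmin (Nb j) (hNbN j) (hNbA j hj) (hblockN j G le_rfl (hcentralG j hj hj1)) with e | e
    · exfalso
      refine hTj fun s hs => ⟨hTG (hT'T j hs), Subgroup.mem_centralizer_iff.mpr fun x hx => ?_⟩
      have h1 : ⁅x, s⁆ ∈ Nb j := Subgroup.commutator_mem_commutator hx hs
      rw [e, Subgroup.mem_bot] at h1
      exact commutatorElement_eq_one_iff_mul_comm.mp h1
    · exact e
  -- the other components centralize `N`
  have hL : ∀ c ∈ A, c ≠ 1 → c ∉ Subgroup.zpowers j → cen G c ≤ C := by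
    intro c hc hc1 hcj g hg
    set D := N ⊓ Subgroup.centralizer ((cen G c : Subgroup Γ) : Set Γ) with hD
    have hDA : A ≤ Subgroup.normalizer (D : Set Γ) :=
      H20.le_normalizer_inf hNA (H20.le_normalizer_centralizer (h.toHyp.le_normalizer_cen hc h.norm))
    have hDL : T' j ≤ Subgroup.normalizer (D : Set Γ) := by
      rw [Subgroup.le_normalizer_iff]
      intro s hs y hy
      refine ⟨H20.conj_mem_of_le_normalizer hTN (hT'T j hs) hy.1, Subgroup.mem_centralizer_iff.mpr ?_⟩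
      intro l hl
      have hz : ⁅l, s⁆ ∈ C := hcentralG j hj hj1 l hl.1 s hs
      have hw : s * y * s⁻¹ ∈ N := H20.conj_mem_of_le_normalizer hTN (hT'T j hs) hy.1
      have hzw := Subgroup.mem_centralizer_iff.mp hz.2 _ hw
      have hly := Subgroup.mem_centralizer_iff.mp hy.2 l hl
      calc l * (s * y * s⁻¹) = ⁅l, s⁆ * s * (l * y) * s⁻¹ := by
            simp only [commutatorElement_def]; group
        _ = ⁅l, s⁆ * s * (y * l) * s⁻¹ := by rw [hly]
        _ = (⁅l, s⁆ * (s * y * s⁻¹)) * (s * l * s⁻¹) := by group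
        _ = ((s * y * s⁻¹) * ⁅l, s⁆) * (s * l * s⁻¹) := by rw [hzw]
        _ = s * y * s⁻¹ * l := by simp only [commutatorElement_def]; group
    have hND : N ≤ D := by
      refine h.le_of_fixed_commutators hj hj1 hc hc1 hcj (cen_mono hTG j) (hT'A j hj) hNG hNA
        ((hT'T j).trans hTN) (hcopN j) hNj.ge inf_le_left hDA hDL ?_ ?_
      · rw [Subgroup.commutator_le]
        intro x hx y hy
        rw [commute_commutatorElement (congrArg Subtype.val (mul_comm' (⟨x, hx⟩ : N) ⟨y, hy⟩))]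
        exact one_mem _
      · intro y hy s hs
        have hyD : y ∈ D := ⟨hy.1, Subgroup.mem_centralizer_iff.mpr fun l hl =>
          h.abelian c hc hc1 l hl y (cen_mono hNG c hy)⟩
        have : ⁅y, s⁆ = y * (s * y⁻¹ * s⁻¹) := by simp only [commutatorElement_def]; group
        rw [this]
        exact mul_mem hyD (H20.conj_mem_of_le_normalizer hDL hs (inv_mem hyD))
    exact ⟨hg.1, Subgroup.mem_centralizer_iff.mpr fun x hx =>
      (Subgroup.mem_centralizer_iff.mp (hND hx).2 g hg).symm⟩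
  have hGle : G ≤ C ⊔ cen G j := h.toHyp.le_of_cen_le le_rfl h.norm fun c hc hc1 => by
    by_cases hcj : c ∈ Subgroup.zpowers j
    · rw [h.toHyp.cen_eq_of_mem_zpowers hc hc1 hj hj1 hcj]; exact le_sup_right
    · exact (hL c hc hc1 hcj).trans le_sup_left
  refine le_trans ?_ (inf_le_right : C ≤ _)
  rw [Subgroup.commutator_le]
  intro x hx y hy
  have hJ : cen G j ≤ Subgroup.normalizer (C : Set Γ) := inf_le_left.trans hCG
  have hx' : x ∈ (C : Set Γ) * ((cen G j : Subgroup Γ) : Set Γ) := by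
    rw [← Subgroup.coe_mul_of_right_le_normalizer_left C _ hJ]; exact hGle hx
  have hy' : y ∈ (C : Set Γ) * ((cen G j : Subgroup Γ) : Set Γ) := by
    rw [← Subgroup.coe_mul_of_right_le_normalizer_left C _ hJ]; exact hGle hy
  obtain ⟨c1, hc1, x1, hx1, rfl⟩ := hx'
  obtain ⟨c2, hc2, y1, hy1, rfl⟩ := hy'
  have hn : ∀ g ∈ cen G j, ∀ z ∈ C, g * z * g⁻¹ ∈ C := fun g hg z hz =>
    H20.conj_mem_of_le_normalizer hJ hg hz
  have e1 : ⁅c1 * x1, c2 * y1⁆ = c1 * (x1 * c2 * x1⁻¹) * ((x1 * y1 * x1⁻¹) * c1⁻¹ * (x1 * y1 * x1⁻¹)⁻¹) *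
      (⁅x1, y1⁆ * c2⁻¹) := by
    simp only [commutatorElement_def]; group
  rw [e1, commute_commutatorElement (h.abelian j hj hj1 x1 hx1 y1 hy1), one_mul]
  exact mul_mem (mul_mem (mul_mem hc1 (hn _ hx1 _ hc2))
    (hn _ (mul_mem (mul_mem hx1 hy1) (inv_mem hx1)) _ (inv_mem hc1))) (inv_mem hc2)

end Setting

end Cfsg.Agent.H77.CentSq
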