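import Cfsg.Agent.H77.CentralizerSquare.Section

/-!
Solvable groups in the setting have nilpotent derived subgroup; hence they factor as
`O_{p'} · N(P)`.
-/

set_option autoImplicit false
open scoped Pointwise commutatorElement

namespace Cfsg.Agent.H77.CentSq

universe u

theorem Hyp.map {Γ Γ' : Type*} [Group Γ] [Group Γ'] [Finite Γ] {q : ℕ} {A G : Subgroup Γ}
    (h : Hyp q A G) (f : Γ →* Γ') (hker : f.ker ≤ G) : Hyp q (A.map f) (G.map f) := by
  have hkA : A ≤ Subgroup.normalizer (f.ker : Set Γ) := le_top.trans (Subgroup.normalizer_eq_top f.ker).ge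
  have hinjA : Function.Injective (f.subgroupMap A) := by
    rw [← MonoidHom.ker_eq_bot_iff, eq_bot_iff]
    intro x hx
    have hxG : (x : Γ) ∈ G := hker (congrArg Subtype.val ((MonoidHom.mem_ker).mp hx))
    exact Subtype.ext (H20.eq_one_of_mem_of_coprime h.cop x.2 hxG)
  let e : A ≃* A.map f := MulEquiv.ofBijective _ ⟨hinjA, f.subgroupMap_surjective A⟩
  refine
    { prime := h.prime
      comm := ?_
      card := by rw [← Nat.card_congr e.toEquiv]; exact h.card
      notCyclic := fun hc => h.notCyclic (e.isCyclic.mpr hc)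
      norm := ?_
      cop := ?_
      abelian := ?_ }
  · refine IsMulCommutative.of_comm fun x y => e.symm.injective ?_
    haveI := h.comm
    rw [map_mul, map_mul, mul_comm']
  · exact (Subgroup.map_mono h.norm).trans (Subgroup.le_normalizer_map f)
  · rw [← Nat.card_congr e.toEquiv]
    exact h.cop.coprime_dvd_right (Subgroup.card_map_dvd _ _)
  · rintro _ ⟨a, ha, rfl⟩ ha1 x hx y hy
    have ha1' : a ≠ 1 := fun e => ha1 (by rw [e, map_one])
    have lift : ∀ z ∈ cen (G.map f) (f a), ∃ c ∈ cen G a, f c = z := by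
      intro z hz
      obtain ⟨g, hg, rfl⟩ := (mem_cen.mp hz).1
      obtain ⟨c, hc, hgc⟩ := h.exists_fixed_coset ha hker hkA hg (by
        rw [MonoidHom.mem_ker]
        simp only [map_mul, map_inv]
        rw [(mem_cen.mp hz).2]
        group)
      refine ⟨c, hc, ?_⟩
      rw [MonoidHom.mem_ker, map_mul, map_inv, inv_mul_eq_one] at hgc
      exact hgc.symm
    obtain ⟨c, hc, rfl⟩ := lift x hx
    obtain ⟨d, hd, rfl⟩ := lift y hy
    rw [← map_mul, ← map_mul, h.abelian a ha ha1' c hc d hd]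

theorem Setting.map {Γ Γ' : Type*} [Group Γ] [Group Γ'] [Finite Γ] {q : ℕ} {A G : Subgroup Γ}
    (h : Setting q A G) (f : Γ →* Γ') (hker : f.ker ≤ G) : Setting q (A.map f) (G.map f) where
  toHyp := h.toHyp.map f hker
  fixFree := by
    rw [eq_bot_iff]
    rintro z ⟨⟨g, hg, rfl⟩, hz⟩
    have hkA : A ≤ Subgroup.normalizer (f.ker : Set Γ) := le_top.trans (Subgroup.normalizer_eq_top f.ker).ge
    haveI := h.comm
    obtain ⟨c, hc, hgc⟩ := H20.exists_fixed_mem_coset h.cop (Or.inl (H20.isSolvable_of_isMulCommutative A))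
      hker hkA hg (fun a ha => by
        rw [MonoidHom.mem_ker]
        simp only [map_mul, map_inv]
        rw [Subgroup.mem_centralizer_iff.mp hz (f a) ⟨a, ha, rfl⟩]
        group)
    rw [h.fixFree, Subgroup.mem_bot] at hc
    subst hc
    rw [MonoidHom.mem_ker, map_mul, map_inv, inv_mul_eq_one, map_one] at hgc
    rw [Subgroup.mem_bot, hgc]

theorem Hyp.subgroupOf {Γ : Type*} [Group Γ] [Finite Γ] {q : ℕ} {A G : Subgroup Γ} (h : Hyp q A G)
    {M : Subgroup Γ} (hA : A ≤ M) (hG : G ≤ M) : Hyp q (A.subgroupOf M) (G.subgroupOf M) where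
  prime := h.prime
  comm := IsMulCommutative.of_comm fun x y => Subtype.ext (Subtype.ext (comm_of_mem h.comm x.2 y.2))
  card := by rw [Nat.card_congr (Subgroup.subgroupOfEquivOfLe hA).toEquiv]; exact h.card
  notCyclic hc := h.notCyclic ((Subgroup.subgroupOfEquivOfLe hA).isCyclic.mp hc)
  norm := by
    rw [Subgroup.le_normalizer_iff]
    intro a ha g hg
    exact H20.conj_mem_of_le_normalizer h.norm (Subgroup.mem_subgroupOf.mp ha) (Subgroup.mem_subgroupOf.mp hg)
  cop := by
    rw [Nat.card_congr (Subgroup.subgroupOfEquivOfLe hA).toEquiv,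
      Nat.card_congr (Subgroup.subgroupOfEquivOfLe hG).toEquiv]
    exact h.cop
  abelian a ha ha1 x hx y hy := by
    have lift : ∀ z : M, z ∈ cen (G.subgroupOf M) a → (z : Γ) ∈ cen G (a : Γ) := fun z hz =>
      mem_cen.mpr ⟨(mem_cen.mp hz).1, congrArg Subtype.val (mem_cen.mp hz).2⟩
    exact Subtype.ext (h.abelian a ha (fun e => ha1 (Subtype.ext e)) x (lift x hx) y (lift y hy))

theorem Setting.subgroupOf {Γ : Type*} [Group Γ] [Finite Γ] {q : ℕ} {A G : Subgroup Γ} (h : Setting q A G)
    {M : Subgroup Γ} (hA : A ≤ M) (hG : G ≤ M) : Setting q (A.subgroupOf M) (G.subgroupOf M) where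
  toHyp := h.toHyp.subgroupOf hA hG
  fixFree := by
    rw [eq_bot_iff]
    intro z hz
    have : (z : Γ) ∈ G ⊓ Subgroup.centralizer (A : Set Γ) :=
      ⟨hz.1, Subgroup.mem_centralizer_iff.mpr fun a ha =>
        congrArg Subtype.val (Subgroup.mem_centralizer_iff.mp hz.2 ⟨a, hA ha⟩ ha)⟩
    rw [h.fixFree, Subgroup.mem_bot] at this
    exact Subgroup.mem_bot.mpr (Subtype.ext this)

/-- A minimal invariant normal subgroup. -/
theorem exists_minimal_normal {Γ : Type*} [Group Γ] [Finite Γ] {A G : Subgroup Γ}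
    (hA : A ≤ Subgroup.normalizer (G : Set Γ)) (hs : Group.IsSolvable G) (hne : G ≠ ⊥) :
    ∃ (r : ℕ) (N : Subgroup Γ), r.Prime ∧ N ≤ G ∧ A ≤ Subgroup.normalizer (N : Set Γ) ∧
      G ≤ Subgroup.normalizer (N : Set Γ) ∧ N ≠ ⊥ ∧ IsMulCommutative N ∧ IsPGroup r N ∧
      ∀ M : Subgroup Γ, M ≤ N → A ≤ Subgroup.normalizer (M : Set Γ) →
        G ≤ Subgroup.normalizer (M : Set Γ) → M = ⊥ ∨ M = N := by
  obtain ⟨N, ⟨hNne, hNG, hNA, hGN⟩, hmin⟩ :=
    (Set.toFinite {N : Subgroup Γ | N ≠ ⊥ ∧ N ≤ G ∧ A ≤ Subgroup.normalizer (N : Set Γ) ∧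
      G ≤ Subgroup.normalizer (N : Set Γ)}).exists_minimal ⟨G, hne, le_rfl, hA, Subgroup.le_normalizer⟩
  have hmin' : ∀ M : Subgroup Γ, M ≤ N → A ≤ Subgroup.normalizer (M : Set Γ) →
      G ≤ Subgroup.normalizer (M : Set Γ) → M = ⊥ ∨ M = N := by
    intro M hMN hMA hMG
    by_cases hM : M = ⊥
    · exact Or.inl hM
    · exact Or.inr (le_antisymm hMN (hmin ⟨hM, hMN.trans hNG, hMA, hMG⟩ hMN))
  have hNc : ∀ x ∈ N, ∀ y ∈ N, x * y = y * x := by
    rcases hmin' ⁅N, N⁆ (Subgroup.commutator_le_self N) (le_normalizer_commutator' hNA hNA)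
      (le_normalizer_commutator' hGN hGN) with e | e
    · intro x hx y hy
      have := Subgroup.commutator_mem_commutator hx hy
      rw [e, Subgroup.mem_bot] at this
      exact commutatorElement_eq_one_iff_mul_comm.mp this
    · exfalso
      haveI : Group.IsSolvable N := H20.isSolvable_of_le hNG hs
      haveI : Nontrivial N := N.nontrivial_iff_ne_bot.mpr hNne
      have hlt := Group.IsSolvable.commutator_lt_top_of_nontrivial N
      rw [← Subgroup.map_subtype_lt_map_subtype, Subgroup.map_subtype_commutator, e,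
        ← MonoidHom.range_eq_map, Subgroup.range_subtype] at hlt
      exact lt_irrefl _ hlt
  obtain ⟨r, hr, hrd⟩ := Nat.exists_prime_and_dvd
    (show Nat.card N ≠ 1 from fun h => hNne (Subgroup.card_eq_one.mp h))
  haveI := Fact.mk hr
  let R : Subgroup Γ :=
    { carrier := {x | x ∈ N ∧ x ^ r = 1}
      one_mem' := ⟨one_mem _, one_pow _⟩
      mul_mem' := fun {x y} hx hy => ⟨mul_mem hx.1 hy.1, by
        rw [(show Commute x y from hNc x hx.1 y hy.1).mul_pow, hx.2, hy.2, one_mul]⟩
      inv_mem' := fun {x} hx => ⟨inv_mem hx.1, by rw [inv_pow, hx.2, inv_one]⟩ }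
  have hRinv : ∀ B : Subgroup Γ, B ≤ Subgroup.normalizer (N : Set Γ) →
      B ≤ Subgroup.normalizer (R : Set Γ) := fun B hB =>
    Subgroup.le_normalizer_iff.mpr fun b hb x hx =>
      ⟨H20.conj_mem_of_le_normalizer hB hb hx.1, by rw [conj_pow, hx.2]; group⟩
  refine ⟨r, N, hr, hNG, hNA, hGN, hNne, IsMulCommutative.of_comm fun x y => Subtype.ext (hNc x x.2 y y.2),
    ?_, hmin'⟩
  rcases hmin' R (fun x hx => hx.1) (hRinv A hNA) (hRinv G hGN) with e | e
  · exfalso
    obtain ⟨x, hx⟩ := exists_prime_orderOf_dvd_card' r hrd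
    have hxR : (x : Γ) ∈ R := ⟨x.2, by rw [← SubmonoidClass.coe_pow, ← hx, pow_orderOf_eq_one]; rfl⟩
    rw [e, Subgroup.mem_bot] at hxR
    rw [show x = 1 from Subtype.ext hxR, orderOf_one] at hx
    exact hr.one_lt.ne hx
  · intro x
    have hx : (x : Γ) ∈ R := by rw [e]; exact x.2
    exact ⟨1, Subtype.ext (by rw [pow_one, SubmonoidClass.coe_pow]; exact hx.2)⟩

theorem isNilpotent_commutator_aux (k : ℕ) : ∀ (Γ : Type u) [Group Γ] [Finite Γ] (q : ℕ) (A G : Subgroup Γ),
    Setting q A G → Group.IsSolvable G → Nat.card G ≤ k → Group.IsNilpotent (⁅G, G⁆ : Subgroup Γ) := by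
  induction k with
  | zero =>
    intro Γ _ _ q A G _ _ hk
    exact absurd hk (Nat.not_le.mpr Nat.card_pos)
  | succ k ih =>
    intro Γ _ _ q A G h hs hk
    by_cases hG : G = ⊥
    · subst hG
      rw [show (⁅(⊥ : Subgroup Γ), ⊥⁆ : Subgroup Γ) = ⊥ from Subgroup.commutator_bot_left _]
      infer_instance
    obtain ⟨r, N, hr, hNG, hNA, hGN, hNne, hNc, hNp, hmin⟩ := exists_minimal_normal h.norm hs hG
    haveI := Fact.mk hr
    have hcen := h.commutator_le_centralizer_of_minimal hs hNG hNA hGN hNne hNc hNp hmin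
    set M := Subgroup.normalizer (N : Set Γ) with hM
    set N1 := N.subgroupOf M with hN1
    haveI : N1.Normal := Subgroup.normal_subgroupOf_of_le_normalizer le_rfl
    set G1 := G.subgroupOf M with hG1
    let f := QuotientGroup.mk' N1
    have h1 := h.subgroupOf hNA hGN
    have hker : f.ker ≤ G1 := by
      rw [QuotientGroup.ker_mk']
      exact Subgroup.comap_mono hNG
    have hlt : Nat.card (G1.map f) ≤ k := by
      have hmul : Nat.card (G1.map f) * Nat.card N1 = Nat.card G1 := by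
        have h2 := (f.subgroupMap G1).ker.index_mul_card
        rw [Subgroup.index_ker,
          MonoidHom.range_eq_top.mpr (f.subgroupMap_surjective G1), Subgroup.card_top] at h2
        rw [← h2]
        congr 1
        refine Nat.card_congr ⟨fun x => ⟨⟨x.1, hker (by rw [QuotientGroup.ker_mk']; exact x.2)⟩, ?_⟩,
          fun x => ⟨x.1.1, ?_⟩, fun x => rfl, fun x => rfl⟩
        · exact MonoidHom.mem_ker.mpr (Subtype.ext ((QuotientGroup.eq_one_iff _).mpr x.2))
        · exact (QuotientGroup.eq_one_iff _).mp (congrArg Subtype.val (MonoidHom.mem_ker.mp x.2))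
      have hN2 : 2 ≤ Nat.card N1 := by
        rw [Nat.card_congr (Subgroup.subgroupOfEquivOfLe (Subgroup.le_normalizer : N ≤ M)).toEquiv]
        exact (Subgroup.one_lt_card_iff_ne_bot N).mpr hNne
      have hG1c : Nat.card G1 = Nat.card G := Nat.card_congr (Subgroup.subgroupOfEquivOfLe hGN).toEquiv
      have hpos : 0 < Nat.card (G1.map f) := Nat.card_pos
      nlinarith
    have hs1 : Group.IsSolvable G1 := by
      haveI := hs
      exact Group.isSolvable_of_surjective (f := (Subgroup.subgroupOfEquivOfLe hGN).symm.toMonoidHom)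
        (Subgroup.subgroupOfEquivOfLe hGN).symm.surjective
    have hs2 : Group.IsSolvable (G1.map f) := by
      haveI := hs1
      exact Group.isSolvable_of_surjective (f := f.subgroupMap G1) (f.subgroupMap_surjective G1)
    have hnil := ih (M ⧸ N1) q _ _ (h1.map f hker) hs2 hlt
    rw [← Subgroup.map_commutator] at hnil
    have hD : Group.IsNilpotent (⁅G1, G1⁆ : Subgroup M) := by
      haveI := hnil
      refine Subgroup.isNilpotent_of_ker_le_center (f.subgroupMap ⁅G1, G1⁆) ?_
      intro x hx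
      rw [Subgroup.mem_center_iff]
      intro y
      apply Subtype.ext
      apply Subtype.ext
      have hxN : ((x : M) : Γ) ∈ N := by
        have := congrArg Subtype.val (MonoidHom.mem_ker.mp hx)
        exact (QuotientGroup.eq_one_iff (x : M)).mp this
      have hy : ((y : M) : Γ) ∈ ⁅G, G⁆ := by
        have hle : (⁅G1, G1⁆ : Subgroup M).map M.subtype ≤ ⁅G, G⁆ := by
          rw [Subgroup.map_commutator]
          exact Subgroup.commutator_mono (Subgroup.map_le_iff_le_comap.mpr le_rfl)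
            (Subgroup.map_le_iff_le_comap.mpr le_rfl)
        exact hle ⟨y, y.2, rfl⟩
      exact (Subgroup.mem_centralizer_iff.mp (hcen hy) _ hxN).symm
    have hmap : (⁅G1, G1⁆ : Subgroup M).map M.subtype = ⁅G, G⁆ := by
      rw [Subgroup.map_commutator, hG1, Subgroup.subgroupOf_map_subtype, inf_eq_left.mpr hGN]
    rw [← hmap]
    exact (Group.isNilpotent_congr (Subgroup.equivMapOfInjective _ M.subtype M.subtype_injective)).mp hD

theorem Setting.isNilpotent_commutator {Γ : Type u} [Group Γ] [Finite Γ] {q : ℕ} {A G : Subgroup Γ}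
    (h : Setting q A G) (hs : Group.IsSolvable G) : Group.IsNilpotent (⁅G, G⁆ : Subgroup Γ) :=
  isNilpotent_commutator_aux _ Γ q A G h hs le_rfl

/-- `G = O_{p'}(G) N(P)` and `G' ≤ O_{p'}(G) P`. -/
theorem Setting.exists_core {Γ : Type u} [Group Γ] [Finite Γ] {q : ℕ} {A G : Subgroup Γ}
    (h : Setting q A G) (hs : Group.IsSolvable G) {p : ℕ} [Fact p.Prime] {P : Subgroup Γ} (hPG : P ≤ G)
    (hP : Nat.card P = p ^ (Nat.card G).factorization p) :
    ∃ W : Subgroup Γ, W ≤ G ∧ A ≤ Subgroup.normalizer (W : Set Γ) ∧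
      G ≤ Subgroup.normalizer (W : Set Γ) ∧ (Nat.card W).Coprime p ∧
      (∀ x ∈ G, ∃ w ∈ W, ∃ n ∈ G ⊓ Subgroup.normalizer (P : Set Γ), x = w * n) ∧
      ⁅G, G⁆ ≤ W ⊔ P := by
  haveI hWn := H19.pPrimeCore_normal p G
  haveI := H19.pPrimeCore_characteristic p G
  set W0 := Cfsg.pPrimeCore p G with hW0
  obtain ⟨S, hS⟩ := H20.exists_sylow_map_eq hPG hP
  have hnil : Group.IsNilpotent (commutator G) := by
    have hmap : (commutator G).map G.subtype = ⁅G, G⁆ := G.map_subtype_commutator
    have := h.isNilpotent_commutator hs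
    rw [← hmap] at this
    exact (Group.isNilpotent_congr (Subgroup.equivMapOfInjective _ G.subtype G.subtype_injective)).mpr this
  have hT : commutator G ≤ W0 ⊔ (S : Subgroup G) := by
    refine (H19.le_fitting inferInstance hnil).trans ?_
    rw [H19.fitting_eq_iSup_pCore]
    refine iSup_le fun r => ?_
    by_cases hrp : (r : ℕ) = p
    · rw [hrp]
      exact (H19.pCore_le_sylow S).trans le_sup_right
    · refine le_trans (H19.le_pPrimeCore (H19.pCore_normal _ _) ?_) le_sup_left
      haveI := Fact.mk r.2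
      obtain ⟨k, hk⟩ := IsPGroup.iff_card.mp (H19.pCore_isPGroup (G := G) (r : ℕ))
      rw [hk]
      exact Nat.Coprime.pow_left k ((Nat.coprime_primes r.2 Fact.out).mpr hrp)
  set T0 := W0 ⊔ (S : Subgroup G) with hT0
  haveI hTn : T0.Normal := by
    refine ⟨fun t ht g => ?_⟩
    have e : g * t * g⁻¹ = ⁅g, t⁆ * t := by simp [commutatorElement_def]
    rw [e]
    refine mul_mem (hT ?_) ht
    rw [commutator_def]
    exact Subgroup.commutator_mem_commutator (Subgroup.mem_top g) (Subgroup.mem_top t)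
  have hfr := Sylow.normalizer_sup_eq_top (S.subtype (le_sup_right : (S : Subgroup G) ≤ T0))
  refine ⟨W0.map G.subtype, Subgroup.map_subtype_le _, le_normalizer_map_char h.norm W0, ?_, ?_, ?_, ?_⟩
  · rw [Subgroup.le_normalizer_iff]
    rintro g hg _ ⟨w, hw, rfl⟩
    exact ⟨⟨g, hg⟩ * w * ⟨g, hg⟩⁻¹, hWn.conj_mem w hw ⟨g, hg⟩, rfl⟩
  · rw [← Nat.card_congr (Subgroup.equivMapOfInjective W0 G.subtype G.subtype_injective).toEquiv]
    exact H19.pPrimeCore_coprime p
  · intro x hx
    have hSmap : ((S.subtype (le_sup_right : (S : Subgroup G) ≤ T0) : Sylow p T0) : Subgroup T0).map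
        T0.subtype = (S : Subgroup G) := by
      rw [Sylow.coe_subtype, Subgroup.subgroupOf_map_subtype, inf_eq_left.mpr le_sup_right]
    rw [hSmap] at hfr
    have hle : (⊤ : Subgroup G) ≤ W0 ⊔ Subgroup.normalizer ((S : Subgroup G) : Set G) := by
      rw [← hfr]
      exact sup_le le_sup_right (sup_le le_sup_left (Subgroup.le_normalizer.trans le_sup_right))
    have hx' : (⟨x, hx⟩ : G) ∈ (W0 : Set G) *
        ((Subgroup.normalizer ((S : Subgroup G) : Set G) : Subgroup G) : Set G) := by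
      rw [← Subgroup.coe_mul_of_right_le_normalizer_left W0 _ (le_top.trans (Subgroup.normalizer_eq_top W0).ge)]
      exact hle (Subgroup.mem_top _)
    obtain ⟨w, hw, n, hn, e⟩ := hx'
    refine ⟨(w : Γ), ⟨w, hw, rfl⟩, (n : Γ), ⟨n.2, ?_⟩, (congrArg Subtype.val e).symm⟩
    rw [← hS]
    exact Subgroup.le_normalizer_map G.subtype ⟨n, hn, rfl⟩
  · rw [← hS, ← Subgroup.map_sup, ← G.map_subtype_commutator]
    exact Subgroup.map_mono hT

end Cfsg.Agent.H77.CentSq
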