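import Cfsg.Agent.H77.CentralizerSquare.Basic

/-!
The key lemma: if an abelian `L` centralised by `n ∈ A` acts coprimely, without fixed quotient,
on an abelian section, then for every `c ∈ A` outside `⟨n⟩` the section has fixed points of `c`
not fixed by `L`. Proof: the trace of `c` is a linear combination of automorphisms, and
Artin's independence argument applies.
-/

set_option autoImplicit false
open scoped Pointwise commutatorElement

namespace Cfsg.Agent.H77.CentSq

/-- Artin's argument. -/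
theorem coeff_eq_zero {R L : Type*} [Ring R] [CommGroup L] (α : R) (ρ : L →* R) (σ : ℕ → L → L)
    (hσ : ∀ k l, α ^ k * ρ l = ρ (σ k l) * α ^ k) (h0 : ∀ l, σ 0 l = l)
    (hgen : ∀ r : R, (∀ g, r * (ρ g - 1) = 0) → r = 0) (s : Finset ℕ)
    (hs : ∀ j ∈ s, Function.Surjective fun l => (σ j l)⁻¹ * l) (hs0 : 0 ∉ s) (c : ℕ → R)
    (hc : ∀ k l, Commute (c k) (ρ l)) (hsum : c 0 + ∑ k ∈ s, c k * α ^ k = 0) : c 0 = 0 := by
  induction s using Finset.induction_on generalizing c with
  | empty => simpa using hsum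
  | @insert j s hj ih =>
    rw [Finset.mem_insert, not_or] at hs0
    refine hgen _ fun g => ?_
    obtain ⟨l, hl⟩ := hs j (Finset.mem_insert_self j s) g
    have hρ : ∀ u v, Commute (ρ u) (ρ v) := fun u v => (Commute.all u v).map ρ
    have key : c 0 * (ρ l - ρ (σ j l)) = 0 := by
      have h := ih (fun i hi => hs i (Finset.mem_insert_of_mem hi)) hs0.2
        (fun k => c k * (ρ (σ k l) - ρ (σ j l)))
        (fun k u => Commute.mul_left (hc k u) ((hρ _ u).sub_left (hρ _ u))) ?_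
      · simpa [h0] using h
      · have h1 : (c 0 + ∑ k ∈ insert j s, c k * α ^ k) * ρ l = 0 := by rw [hsum, zero_mul]
        have h2 : ρ (σ j l) * (c 0 + ∑ k ∈ insert j s, c k * α ^ k) = 0 := by rw [hsum, mul_zero]
        have h3 := congrArg₂ (· - ·) h1 h2
        simp only [sub_zero] at h3
        rw [add_mul, mul_add, Finset.sum_mul, Finset.mul_sum, add_sub_add_comm,
          ← Finset.sum_sub_distrib, Finset.sum_insert hj] at h3
        have h4 : ∀ k, c k * α ^ k * ρ l - ρ (σ j l) * (c k * α ^ k) =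
            c k * (ρ (σ k l) - ρ (σ j l)) * α ^ k := by
          intro k
          rw [mul_assoc, hσ, ← mul_assoc, ← mul_assoc, ← (hc k (σ j l)).eq, ← sub_mul, ← mul_sub]
        simp only [h4, sub_self, mul_zero, zero_mul, zero_add] at h3
        rw [h0, mul_sub, (hc 0 (σ j l)).eq]
        exact h3
    have hu : ρ (σ j l)⁻¹ * ρ (σ j l) = 1 := by rw [← map_mul, inv_mul_cancel, map_one]
    have e : ρ g - 1 = ρ (σ j l)⁻¹ * (ρ l - ρ (σ j l)) := by
      rw [mul_sub, hu, ← map_mul]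
      exact congrArg (fun x => ρ x - 1) hl.symm
    rw [e, ← mul_assoc, (hc 0 _).eq, mul_assoc, key, mul_zero]

variable {Γ : Type*} [Group Γ]

namespace Hyp

variable {q : ℕ} {A G : Subgroup Γ} (h : Hyp q A G)
include h

/-- Nontrivial elements of `A` have order `q`. -/
theorem orderOf_eq {a : Γ} (ha : a ∈ A) (ha1 : a ≠ 1) : orderOf a = q := by
  have hd : orderOf a ∣ q ^ 2 := h.card ▸ Subgroup.orderOf_dvd_natCard A ha
  obtain ⟨i, hi, hic⟩ := (Nat.dvd_prime_pow h.prime).mp hd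
  interval_cases i
  · exact absurd (orderOf_eq_one_iff.mp (by simpa using hic)) ha1
  · simpa using hic
  · exfalso
    haveI : Finite A := Nat.finite_of_card_ne_zero (by rw [h.card]; exact pow_ne_zero _ h.prime.ne_zero)
    exact h.notCyclic (isCyclic_of_orderOf_eq_card ⟨a, ha⟩ (by rw [Subgroup.orderOf_mk, hic, h.card]))

theorem pow_ne_one {a : Γ} (ha : a ∈ A) (ha1 : a ≠ 1) {j : ℕ} (hj : 0 < j) (hjq : j < q) : a ^ j ≠ 1 :=
  pow_ne_one_of_lt_orderOf hj.ne' (by rw [h.orderOf_eq ha ha1]; exact hjq)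

theorem mem_zpowers_of_pow {a b : Γ} (ha : a ∈ A) (ha1 : a ≠ 1) {j : ℕ} (hj : 0 < j) (hjq : j < q)
    (hb : a ^ j ∈ Subgroup.zpowers b) : a ∈ Subgroup.zpowers b := by
  have hcop : j.Coprime (orderOf a) := by
    rw [h.orderOf_eq ha ha1, Nat.coprime_comm, h.prime.coprime_iff_not_dvd]
    exact Nat.not_dvd_of_pos_of_lt hj hjq
  obtain ⟨m, hm⟩ := exists_pow_eq_self_of_coprime hcop
  rw [← hm]
  exact pow_mem hb m

/-- Independence is symmetric. -/
theorem notMem_zpowers_symm [Finite Γ] {a b : Γ} (ha : a ∈ A) (ha1 : a ≠ 1) (hb : b ∈ A) (hb1 : b ≠ 1)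
    (hab : a ∉ Subgroup.zpowers b) : b ∉ Subgroup.zpowers a := by
  intro hba
  refine hab ?_
  rw [Subgroup.eq_of_le_of_card_ge (Subgroup.zpowers_le.mpr hba)
    (by rw [Nat.card_zpowers, Nat.card_zpowers, h.orderOf_eq ha ha1, h.orderOf_eq hb hb1])]
  exact Subgroup.mem_zpowers a

theorem trans_notMem [Finite Γ] {a b d : Γ} (ha : a ∈ A) (ha1 : a ≠ 1) (hd : d ∈ A) (hd1 : d ≠ 1)
    (hab : a ∈ Subgroup.zpowers b) (hb : b ∈ A) (hb1 : b ≠ 1) (hdb : d ∉ Subgroup.zpowers b) :
    d ∉ Subgroup.zpowers a := fun hda =>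
  hdb (Subgroup.zpowers_le.mpr hab hda)

end Hyp

namespace Setting

variable {q : ℕ} {A G : Subgroup Γ} (h : Setting q A G)
include h

/-- **Key lemma.** -/
theorem le_of_fixed_commutators [Finite Γ] {n c : Γ} (hn : n ∈ A) (hn1 : n ≠ 1) (hc : c ∈ A) (hc1 : c ≠ 1)
    (hcn : c ∉ Subgroup.zpowers n) {L Y D : Subgroup Γ} (hL : L ≤ cen G n)
    (hLA : A ≤ Subgroup.normalizer (L : Set Γ)) (hY : Y ≤ G)
    (hYA : A ≤ Subgroup.normalizer (Y : Set Γ)) (hYL : L ≤ Subgroup.normalizer (Y : Set Γ))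
    (hcop : (Nat.card L).Coprime (Nat.card Y)) (hYcomm : Y ≤ ⁅Y, L⁆)
    (hDY : D ≤ Y) (hDA : A ≤ Subgroup.normalizer (D : Set Γ))
    (hDL : L ≤ Subgroup.normalizer (D : Set Γ)) (hD : ⁅Y, Y⁆ ≤ D)
    (hfix : ∀ y ∈ cen Y c, ∀ l ∈ L, ⁅y, l⁆ ∈ D) : Y ≤ D := by
  classical
  haveI hDn : (D.subgroupOf Y).Normal := by
    refine ⟨fun d hd y => ?_⟩
    rw [Subgroup.mem_subgroupOf] at hd ⊢
    have e : ((y * d * y⁻¹ : Y) : Γ) = ⁅(y : Γ), (d : Γ)⁆ * d := by
      simp [commutatorElement_def]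
    rw [e]
    exact mul_mem (hD (Subgroup.commutator_mem_commutator y.2 d.2)) hd
  let M := Y ⧸ D.subgroupOf Y
  letI : CommGroup M :=
    { (inferInstance : Group M) with
      mul_comm := fun x y => by
        obtain ⟨a, rfl⟩ := QuotientGroup.mk_surjective x
        obtain ⟨b, rfl⟩ := QuotientGroup.mk_surjective y
        rw [← QuotientGroup.mk_mul, ← QuotientGroup.mk_mul, QuotientGroup.eq, Subgroup.mem_subgroupOf]
        have e : (((a * b)⁻¹ * (b * a) : Y) : Γ) = ⁅((b : Γ))⁻¹, ((a : Γ))⁻¹⁆ := by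
          simp [commutatorElement_def, mul_assoc]
        rw [e]
        exact hD (Subgroup.commutator_mem_commutator (inv_mem b.2) (inv_mem a.2)) }
  let N : Subgroup Γ := Subgroup.normalizer (Y : Set Γ) ⊓ Subgroup.normalizer (D : Set Γ)
  let toY : N →* MulAut Y := Y.normalizerMonoidHom.comp (Subgroup.inclusion inf_le_left)
  have htoY : ∀ (g : N) (y : Y), ((toY g y : Y) : Γ) = g * y * (g : Γ)⁻¹ := fun g y => rfl
  have hpres : ∀ g : N, D.subgroupOf Y ≤ (D.subgroupOf Y).comap (toY g).toMonoidHom := by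
    intro g d hd
    rw [Subgroup.mem_comap, Subgroup.mem_subgroupOf]
    show ((toY g d : Y) : Γ) ∈ D
    rw [htoY]
    exact H20.conj_mem_of_le_normalizer (inf_le_right : N ≤ _) g.2 hd
  let act : N →* AddMonoid.End (Additive M) :=
    { toFun := fun g => MonoidHom.toAdditive (QuotientGroup.map _ _ (toY g).toMonoidHom (hpres g))
      map_one' := by
        ext x
        obtain ⟨y, rfl⟩ := QuotientGroup.mk_surjective (Additive.toMul x)
        simp
        rfl
      map_mul' := fun g g' => by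
        ext x
        obtain ⟨y, hy⟩ := QuotientGroup.mk_surjective (Additive.toMul x)
        obtain rfl : x = Additive.ofMul (QuotientGroup.mk y : M) := by rw [hy]; rfl
        show Additive.ofMul (QuotientGroup.mk (toY (g * g') y) : M) =
          Additive.ofMul (QuotientGroup.mk (toY g (toY g' y)) : M)
        rw [map_mul]
        rfl }
  have hact : ∀ (g : N) (y : Y), act g (Additive.ofMul (QuotientGroup.mk y : M)) =
      Additive.ofMul (QuotientGroup.mk (toY g y) : M) := fun g y => rfl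
  have hLN : L ≤ N := le_inf hYL hDL
  have hAN : A ≤ N := le_inf hYA hDA
  letI : CommGroup L :=
    { (inferInstance : Group L) with
      mul_comm := fun x y => Subtype.ext (h.abelian n hn hn1 x (hL x.2) y (hL y.2)) }
  let ρ : L →* AddMonoid.End (Additive M) := act.comp (Subgroup.inclusion hLN)
  let α : AddMonoid.End (Additive M) := act ⟨c, hAN hc⟩
  let σ : ℕ → L → L := fun k l =>
    ⟨c ^ k * l * (c ^ k)⁻¹, H20.conj_mem_of_le_normalizer hLA (pow_mem hc k) l.2⟩
  have hσ : ∀ k l, α ^ k * ρ l = ρ (σ k l) * α ^ k := by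
    intro k l
    simp only [α, ρ, MonoidHom.comp_apply, ← map_pow, ← map_mul]
    congr 1
    apply Subtype.ext
    simp [σ]
  have hgen : ∀ r : AddMonoid.End (Additive M), (∀ g : L, r * (ρ g - 1) = 0) → r = 0 := by
    intro r hr
    let φ : Y →* Multiplicative (Additive M) :=
      { toFun := fun y => Multiplicative.ofAdd (r (Additive.ofMul (QuotientGroup.mk y : M)))
        map_one' := by simp
        map_mul' := fun a b => by simp [QuotientGroup.mk_mul] }
    have hker : Y ≤ φ.ker.map Y.subtype := by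
      refine hYcomm.trans ?_
      rw [Subgroup.commutator_le]
      intro y hy l hl
      refine ⟨⟨⁅y, l⁆, (H20.commutator_le_of_le_normalizer hYL)
        (Subgroup.commutator_mem_commutator hy hl)⟩, ?_, rfl⟩
      rw [SetLike.mem_coe, MonoidHom.mem_ker]
      have h1 := DFunLike.congr_fun (hr ⟨l, hl⟩) (Additive.ofMul (QuotientGroup.mk (⟨y, hy⟩ : Y) : M))
      have e : (⟨⁅y, l⁆, (H20.commutator_le_of_le_normalizer hYL)
          (Subgroup.commutator_mem_commutator hy hl)⟩ : Y) =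
          ⟨y, hy⟩ * (toY (Subgroup.inclusion hLN ⟨l, hl⟩) ⟨y, hy⟩)⁻¹ := by
        apply Subtype.ext
        simp [htoY, commutatorElement_def, mul_assoc]
      have h2 : r (Additive.ofMul (QuotientGroup.mk (toY (Subgroup.inclusion hLN ⟨l, hl⟩) ⟨y, hy⟩) : M)) =
          r (Additive.ofMul (QuotientGroup.mk (⟨y, hy⟩ : Y) : M)) := by
        rw [← hact]
        exact sub_eq_zero.mp (by rw [← map_sub]; exact h1)
      show Multiplicative.ofAdd (r _) = 1
      rw [e, QuotientGroup.mk_mul, QuotientGroup.mk_inv, ofMul_mul, ofMul_inv, map_add, map_neg, h2,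
        add_neg_cancel, ofAdd_zero]
    ext x
    obtain ⟨y, hy⟩ := QuotientGroup.mk_surjective (Additive.toMul x)
    obtain rfl : x = Additive.ofMul (QuotientGroup.mk y : M) := by rw [hy]; rfl
    obtain ⟨z, hz, e⟩ := hker y.2
    obtain rfl : z = y := Subtype.ext e
    exact Multiplicative.ofAdd.injective (MonoidHom.mem_ker.mp hz)
  -- the trace of `c`
  set T : AddMonoid.End (Additive M) := ∑ k ∈ Finset.range q, α ^ k with hT
  have hαq : α ^ q = 1 := by
    rw [← map_pow, show (⟨c, hAN hc⟩ : N) ^ q = 1 from Subtype.ext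
      (by simp [← h.toHyp.orderOf_eq hc hc1, pow_orderOf_eq_one]), map_one]
  have hαT : α * T = T := by
    have h1 := Finset.sum_range_succ' (fun k => α ^ k) q
    rw [Finset.sum_range_succ, hαq, pow_zero] at h1
    rw [hT, Finset.mul_sum]
    simp only [← pow_succ']
    exact (add_right_cancel h1).symm
  have hρT : ∀ g : L, ρ g * T = T := by
    intro g
    ext x
    obtain ⟨y, hy⟩ := QuotientGroup.mk_surjective (Additive.toMul (T x))
    have hy' : T x = Additive.ofMul (QuotientGroup.mk y : M) := by rw [hy]; rfl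
    have hfy : (y : Γ)⁻¹ * (c * y * c⁻¹) ∈ D := by
      have h1 : α (T x) = T x := DFunLike.congr_fun hαT x
      rw [hy', hact] at h1
      have h2 : (y⁻¹ * toY ⟨c, hAN hc⟩ y) ∈ D.subgroupOf Y :=
        QuotientGroup.eq.mp (Additive.ofMul.injective h1).symm
      simpa [Subgroup.mem_subgroupOf, htoY] using h2
    obtain ⟨d, hd, hyd⟩ := h.toHyp.exists_fixed_coset hc (hDY.trans hY) hDA (hY y.2) hfy
    have hdY : d ∈ Y := by simpa using mul_mem y.2 (hDY hyd)
    have e : T x = Additive.ofMul (QuotientGroup.mk (⟨d, hdY⟩ : Y) : M) := by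
      rw [hy']
      exact congrArg Additive.ofMul (QuotientGroup.eq.mpr (by simpa [Subgroup.mem_subgroupOf] using hyd))
    show ρ g (T x) = T x
    rw [e]
    show act (Subgroup.inclusion hLN g) _ = _
    rw [hact]
    refine congrArg Additive.ofMul (QuotientGroup.eq.mpr ?_)
    rw [Subgroup.mem_subgroupOf]
    have hyc : d ∈ cen Y c := mem_cen.mpr ⟨hdY, (mem_cen.mp hd).2⟩
    have := hfix d hyc g g.2
    have e2 : ((toY (Subgroup.inclusion hLN g) ⟨d, hdY⟩)⁻¹ * ⟨d, hdY⟩ : Y) =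
        (⟨d⁻¹ * ⁅d, (g : Γ)⁆ * d, mul_mem (mul_mem (inv_mem hdY) (hDY this)) hdY⟩ : Y) := by
      apply Subtype.ext
      simp [htoY, commutatorElement_def, mul_assoc]
    rw [e2]
    have hDYn : Y ≤ Subgroup.normalizer (D : Set Γ) := by
      rw [Subgroup.le_normalizer_iff_commutator_le_left, Subgroup.commutator_comm]
      exact (Subgroup.commutator_mono le_rfl hDY).trans hD
    exact H20.inv_conj_mem_of_le_normalizer hDYn hdY this
  haveI : Fintype L := Fintype.ofFinite L
  have hN0 : (∑ l : L, ρ l) = 0 := by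
    refine hgen _ fun g => ?_
    rw [Finset.sum_mul]
    simp only [mul_sub, mul_one, ← map_mul, Finset.sum_sub_distrib]
    rw [sub_eq_zero]
    exact Fintype.sum_equiv (Equiv.mulRight g) _ _ fun l => rfl
  have hT0 : T = 0 := by
    have h1 : (∑ l : L, ρ l) * T = (Nat.card L) • T := by
      rw [Finset.sum_mul]
      simp only [hρT, Finset.sum_const, Finset.card_univ, Nat.card_eq_fintype_card]
    rw [hN0, zero_mul] at h1
    ext x
    have h2 : (Nat.card L) • T x = 0 := by
      have h3 := DFunLike.congr_fun h1.symm x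
      simpa using h3
    have h4 : addOrderOf (T x) ∣ Nat.card Y := by
      refine dvd_trans (addOrderOf_dvd_natCard _) ?_
      exact dvd_trans (dvd_of_eq (Nat.card_congr Additive.toMul)) (Subgroup.card_quotient_dvd_card _)
    exact AddMonoid.addOrderOf_eq_one_iff.mp
      (Nat.eq_one_of_dvd_coprimes hcop (addOrderOf_dvd_iff_nsmul_eq_zero.mpr h2) h4)
  have hsum : (1 : AddMonoid.End (Additive M)) + ∑ k ∈ (Finset.range q).erase 0, 1 * α ^ k = 0 := by
    simp only [one_mul]
    rw [← pow_zero α, Finset.add_sum_erase _ _ (Finset.mem_range.mpr h.toHyp.prime.pos)]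
    exact hT0
  have h10 := coeff_eq_zero α ρ σ hσ (fun l => Subtype.ext (by simp [σ])) hgen
    ((Finset.range q).erase 0) (fun j hj => by
      obtain ⟨hj0, hjq⟩ := Finset.mem_erase.mp hj
      rw [Finset.mem_range] at hjq
      refine Finite.surjective_of_injective fun l m hlm => ?_
      have hj' := Nat.pos_of_ne_zero hj0
      have key : σ j (l * m⁻¹) = l * m⁻¹ := by
        have hmul : σ j (l * m⁻¹) = σ j l * (σ j m)⁻¹ := by
          apply Subtype.ext
          simp [σ, mul_assoc]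
        have hlm' : (σ j l)⁻¹ * l = (σ j m)⁻¹ * m := hlm
        rw [hmul]
        calc σ j l * (σ j m)⁻¹ = σ j l * ((σ j m)⁻¹ * m) * m⁻¹ := by group
          _ = σ j l * ((σ j l)⁻¹ * l) * m⁻¹ := by rw [hlm']
          _ = l * m⁻¹ := by group
      refine mul_inv_eq_one.mp (Subtype.ext ?_)
      refine h.eq_one_of_two (pow_mem hc j) hn hn1 ?_ ?_ (hL (l * m⁻¹).2)
      · exact fun hm => hcn (h.toHyp.mem_zpowers_of_pow hc hc1 hj' hjq hm)
      · refine mem_cen.mpr ⟨(hL (l * m⁻¹).2).1, ?_⟩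
        have k2 := congrArg Subtype.val key
        simp only [σ] at k2
        exact mul_inv_eq_iff_eq_mul.mp k2)
    (fun h0 => (Finset.mem_erase.mp h0).1 rfl) (fun _ => 1) (fun k l => Commute.one_left _) hsum
  intro y hy
  have h11 := DFunLike.congr_fun h10 (Additive.ofMul (QuotientGroup.mk (⟨y, hy⟩ : Y) : M))
  have h12 : (QuotientGroup.mk (⟨y, hy⟩ : Y) : M) = 1 := Additive.ofMul.injective h11
  exact Subgroup.mem_subgroupOf.mp ((QuotientGroup.eq_one_iff (⟨y, hy⟩ : Y)).mp h12)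

/-- An abelian group centralised by `n` which centralises the fixed points of one `c ∉ ⟨n⟩`
centralises everything. -/
theorem le_centralizer_of_cen [Finite Γ] {n c : Γ} (hn : n ∈ A) (hn1 : n ≠ 1) (hc : c ∈ A) (hc1 : c ≠ 1)
    (hcn : c ∉ Subgroup.zpowers n) {L W : Subgroup Γ} (hL : L ≤ cen G n)
    (hLA : A ≤ Subgroup.normalizer (L : Set Γ)) (hW : W ≤ G)
    (hWA : A ≤ Subgroup.normalizer (W : Set Γ)) (hWL : L ≤ Subgroup.normalizer (W : Set Γ))
    (hWs : Group.IsSolvable W) (hcop : (Nat.card L).Coprime (Nat.card W))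
    (hfix : cen W c ≤ Subgroup.centralizer (L : Set Γ)) : L ≤ Subgroup.centralizer (W : Set Γ) := by
  refine H20.le_centralizer_of_commutator_eq_bot ?_
  set Y := ⁅W, L⁆ with hY
  have hYW : Y ≤ W := H20.commutator_le_of_le_normalizer hWL
  have hYA : A ≤ Subgroup.normalizer (Y : Set Γ) := le_normalizer_commutator' hWA hLA
  have hYL : L ≤ Subgroup.normalizer (Y : Set Γ) := Subgroup.normalizer_commutator_ge_right W L
  have hYY : ⁅Y, L⁆ = Y := H20.commutator_commutator_eq hWL hcop (Or.inr hWs)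
  by_contra hne
  have hle := h.le_of_fixed_commutators hn hn1 hc hc1 hcn (D := ⁅Y, Y⁆) hL hLA (hYW.trans hW) hYA hYL
    (H20.coprime_card_mono_right hcop hYW) hYY.ge (Subgroup.commutator_le_self Y)
    (le_normalizer_commutator' hYA hYA) (le_normalizer_commutator' hYL hYL) le_rfl
    (fun y hy l hl => by
      have h1 := hfix (cen_mono hYW c hy)
      rw [commutatorElement_eq_one_iff_mul_comm.mpr ((Subgroup.mem_centralizer_iff.mp h1 l hl).symm)]
      exact one_mem _)
  haveI : Group.IsSolvable Y := H20.isSolvable_of_le hYW hWs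
  haveI : Nontrivial Y := Y.nontrivial_iff_ne_bot.mpr hne
  have hlt := Group.IsSolvable.commutator_lt_top_of_nontrivial Y
  rw [← Subgroup.map_subtype_lt_map_subtype, Subgroup.map_subtype_commutator, ← MonoidHom.range_eq_map,
    Subgroup.range_subtype] at hlt
  exact hlt.not_ge hle

/-- An invariant subgroup centralised by `n` and normalised by `L ≤ C(c)`, `c ∉ ⟨n⟩`, is
centralised by `L`. -/
theorem le_centralizer_of_normalizes [Finite Γ] {n c : Γ} (hn : n ∈ A) (hn1 : n ≠ 1) (hc : c ∈ A) (hc1 : c ≠ 1)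
    (hcn : c ∉ Subgroup.zpowers n) {E L : Subgroup Γ} (hE : E ≤ cen G n)
    (hL : L ≤ cen G c) (hLA : A ≤ Subgroup.normalizer (L : Set Γ))
    (hEL : L ≤ Subgroup.normalizer (E : Set Γ)) : L ≤ Subgroup.centralizer (E : Set Γ) := by
  have key : ∀ l : L, ∀ e ∈ E, (n * (l : Γ) * n⁻¹ * (l : Γ)⁻¹) * e = e * (n * (l : Γ) * n⁻¹ * (l : Γ)⁻¹) := by
    intro l e he
    have h1 : (l : Γ)⁻¹ * e * l ∈ E := by
      have := H20.inv_conj_mem_of_le_normalizer hEL l.2 he
      simpa using this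
    have h2 := (mem_cen.mp (hE h1)).2
    have h3 := (mem_cen.mp (hE he)).2
    calc (n * (l : Γ) * n⁻¹ * (l : Γ)⁻¹) * e
        = n * (l : Γ) * n⁻¹ * ((l : Γ)⁻¹ * e * l) * (l : Γ)⁻¹ := by group
      _ = n * (l : Γ) * ((l : Γ)⁻¹ * e * l) * n⁻¹ * (l : Γ)⁻¹ := by
          rw [show n * (l : Γ) * ((l : Γ)⁻¹ * e * l) * n⁻¹ * (l : Γ)⁻¹ =
            n * (l : Γ) * (((l : Γ)⁻¹ * e * l) * n⁻¹) * (l : Γ)⁻¹ by group,
            show ((l : Γ)⁻¹ * e * l) * n⁻¹ = n⁻¹ * ((l : Γ)⁻¹ * e * l) by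
              rw [eq_inv_mul_iff_mul_eq, ← mul_assoc, h2, mul_inv_cancel_right]]
          group
      _ = n * e * ((l : Γ) * n⁻¹ * (l : Γ)⁻¹) := by group
      _ = e * (n * (l : Γ) * n⁻¹ * (l : Γ)⁻¹) := by rw [h3]; group
  intro x hx
  rw [Subgroup.mem_centralizer_iff]
  intro e he
  let f : L → L := fun l => ⟨n * (l : Γ) * n⁻¹ * (l : Γ)⁻¹,
    mul_mem (H20.conj_mem_of_le_normalizer hLA hn l.2) (inv_mem l.2)⟩
  have hf : Function.Injective f := by
    intro l m hlm
    have h1 : n * (l : Γ) * n⁻¹ * (l : Γ)⁻¹ = n * (m : Γ) * n⁻¹ * (m : Γ)⁻¹ := congrArg Subtype.val hlm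
    have hfix : n * ((m : Γ)⁻¹ * l) * n⁻¹ = (m : Γ)⁻¹ * l := by
      calc n * ((m : Γ)⁻¹ * l) * n⁻¹ = (n * (m : Γ) * n⁻¹)⁻¹ * (n * (l : Γ) * n⁻¹) := by group
        _ = (n * (m : Γ) * n⁻¹)⁻¹ * (n * (l : Γ) * n⁻¹ * (l : Γ)⁻¹ * l) := by group
        _ = (m : Γ)⁻¹ * l := by rw [h1]; group
    have hm : (m⁻¹ * l : L) = 1 := Subtype.ext (h.eq_one_of_two hn hc hc1
      (h.toHyp.notMem_zpowers_symm hc hc1 hn hn1 hcn)
      (mem_cen.mpr ⟨(hL (m⁻¹ * l).2).1, mul_inv_eq_iff_eq_mul.mp hfix⟩) (hL (m⁻¹ * l).2))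
    exact (inv_mul_eq_one.mp hm).symm
  obtain ⟨l, hl⟩ := Finite.surjective_of_injective hf ⟨x, hx⟩
  have := key l e he
  rw [show n * (l : Γ) * n⁻¹ * (l : Γ)⁻¹ = x from congrArg Subtype.val hl] at this
  exact this.symm

end Setting

end Cfsg.Agent.H77.CentSq
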